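import Cfsg.Agent.Blocks.BrauerChar.Place

/-!
# Brauer characters of representations over the residue field
-/

set_option autoImplicit false
set_option linter.unusedSectionVars false
set_option linter.style.haveILetI false

namespace CfsgLib.BrauerChar

open Cfsg CfsgLib.Blocks Polynomial Module

theorem charpoly_eq_mul {R V : Type*} [Field R] [AddCommGroup V] [Module R V] [Module.Finite R V]
    (W : Submodule R V) (e : V →ₗ[R] V) (he : W ≤ W.comap e) :
    e.charpoly = (e.restrict he).charpoly * (W.mapQ W e he).charpoly := by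
  classical
  let bW := Module.Free.chooseBasis R W
  let bQ := Module.Free.chooseBasis R (V ⧸ W)
  let b := Basis.sumQuot bW bQ
  let B := Matrix.of fun i l => (b.repr (e (b (Sum.inr l)))) (Sum.inl i)
  suffices h : LinearMap.toMatrix b b e = Matrix.fromBlocks (LinearMap.toMatrix bW bW (e.restrict he)) B 0
      (LinearMap.toMatrix bQ bQ (W.mapQ W e he)) by
    rw [← LinearMap.charpoly_toMatrix e b, h, Matrix.charpoly_fromBlocks_zero₂₁, LinearMap.charpoly_toMatrix,
      LinearMap.charpoly_toMatrix]
  ext u v
  cases u with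
  | inl i =>
    cases v with
    | inl k =>
      simp only [b, Basis.sumQuot_inl, Matrix.fromBlocks_apply₁₁, LinearMap.toMatrix_apply]
      apply Basis.sumQuot_repr_inl_of_mem
    | inr l => simp [b, LinearMap.toMatrix_apply, Matrix.fromBlocks_apply₁₂, B]
  | inr j =>
    cases v with
    | inl k =>
      suffices W.mkQ (e (bW k)) = 0 by simp [LinearMap.toMatrix_apply, b, this]
      rw [← LinearMap.mem_ker, Submodule.ker_mkQ]
      exact he (Submodule.coe_mem (bW k))
    | inr l =>
      simp only [LinearMap.toMatrix_apply, Basis.sumQuot_repr_inr, Matrix.fromBlocks_apply₂₂, b]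
      rw [← Basis.sumQuot_inr bW bQ l, W.mapQ_apply]
      simp

variable {p : ℕ} {M : Ideal AlgInt} (hM : IsPModular p M) {G : Type*} [Group G] [Fintype G]

section Rep

variable {V : Type*} [AddCommGroup V] [Module (RF hM) V] [Module.Finite (RF hM) V]

open scoped Classical in
/-- The Brauer character of a representation over the residue field, zero on singular elements. -/
noncomputable def bc (ρ : Representation (RF hM) G V) (g : G) : ℂ :=
  if p ∣ orderOf g then 0 else (((ρ g).charpoly.roots).map (teich hM)).sum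

variable {hM} (ρ : Representation (RF hM) G V)

theorem bc_singular {g : G} (hg : p ∣ orderOf g) : bc hM ρ g = 0 := by
  classical
  exact if_pos hg

theorem bc_regular {g : G} (hg : ¬ p ∣ orderOf g) :
    bc hM ρ g = (((ρ g).charpoly.roots).map (teich hM)).sum := by
  classical
  exact if_neg hg

theorem root_pow_orderOf {g : G} {x : RF hM} (hx : x ∈ (ρ g).charpoly.roots) : x ^ orderOf g = 1 := by
  have h := (Module.End.hasEigenvalue_iff_isRoot_charpoly (ρ g) x).2 (isRoot_of_mem_roots hx)
  obtain ⟨v, hv⟩ := h.exists_hasEigenvector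
  have h1 := hv.pow_apply (orderOf g)
  rw [← map_pow, pow_orderOf_eq_one, map_one, Module.End.one_apply] at h1
  exact (smul_left_injective (RF hM) hv.2 (h1.symm.trans (one_smul _ v).symm))

theorem isIntegral_bc (g : G) : IsIntegral ℤ (bc hM ρ g) := by
  classical
  rw [bc]
  split_ifs
  · exact isIntegral_zero
  · refine IsIntegral.multiset_sum fun z hz => ?_
    obtain ⟨x, -, rfl⟩ := Multiset.mem_map.1 hz
    exact isIntegral_teich hM x

theorem memLocalRing_bc (g : G) : MemLocalRing M (bc hM ρ g) :=
  memLocalRing_of_isIntegral hM (isIntegral_bc ρ g)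

/-- The reduction of the Brauer character is the trace. -/
theorem res_bc {g : G} (hg : ¬ p ∣ orderOf g) :
    res hM ⟨bc hM ρ g, mem_plc_of_isIntegral hM (isIntegral_bc ρ g)⟩ = LinearMap.trace (RF hM) V (ρ g) := by
  classical
  rw [Module.End.trace_eq_sum_roots_charpoly_of_splits (IsAlgClosed.splits _)]
  set s := (ρ g).charpoly.roots with hs
  let f : RF hM → plc hM := fun x => ⟨teich hM x, mem_plc_of_isIntegral hM (isIntegral_teich hM x)⟩
  have e : (⟨bc hM ρ g, mem_plc_of_isIntegral hM (isIntegral_bc ρ g)⟩ : plc hM) = (s.map f).sum := by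
    apply Subtype.ext
    show bc hM ρ g = (plc hM).subtype (s.map f).sum
    rw [map_multiset_sum, Multiset.map_map, bc_regular ρ hg]
    rfl
  rw [e, map_multiset_sum, Multiset.map_map]
  conv_rhs => rw [← Multiset.map_id s]
  refine congrArg Multiset.sum (Multiset.map_congr rfl fun x hx => ?_)
  obtain ⟨h, hres⟩ := res_teich hM hg (root_pow_orderOf ρ hx)
  exact hres

theorem bc_equiv {W : Type*} [AddCommGroup W] [Module (RF hM) W] [Module.Finite (RF hM) W]
    (σ : Representation (RF hM) G W) (e : V ≃ₗ[RF hM] W) (h : ∀ g, σ g = e.conj (ρ g)) :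
    bc hM σ = bc hM ρ := by
  classical
  funext g
  rw [bc, bc, h, LinearEquiv.charpoly_conj]

theorem bc_isClassFunction : IsClassFunction G (bc hM ρ) := by
  classical
  intro g x
  have ho : orderOf (x * g * x⁻¹) = orderOf g :=
    orderOf_injective (MulAut.conj x).toMonoidHom (MulAut.conj x).injective g
  rw [bc, bc, ho]
  let e : V ≃ₗ[RF hM] V := LinearEquiv.ofLinearMap (ρ x) (ρ x⁻¹)
    (by rw [← Module.End.mul_eq_comp, ← map_mul, mul_inv_cancel, map_one]; rfl)
    (by rw [← Module.End.mul_eq_comp, ← map_mul, inv_mul_cancel, map_one]; rfl)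
  have : ρ (x * g * x⁻¹) = e.conj (ρ g) := by
    rw [map_mul, map_mul]
    rfl
  rw [this, LinearEquiv.charpoly_conj]

/-- The class sums act by the given scalars. -/
def ClassScalar (ω : G → RF hM) : Prop :=
  ∀ (g : G) (v : V), ∑ᶠ x ∈ {y | IsConj g y}, ρ x v = ω g • v

variable (W : Submodule (RF hM) V) (hW : ∀ g : G, W ≤ W.comap (ρ g))

/-- The representation on an invariant subspace. -/
noncomputable def subRep : Representation (RF hM) G W where
  toFun g := (ρ g).restrict (hW g)
  map_one' := by ext; simp
  map_mul' g h := by ext; simp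

/-- The representation on the quotient by an invariant subspace. -/
noncomputable def quotRep : Representation (RF hM) G (V ⧸ W) where
  toFun g := W.mapQ W (ρ g) (hW g)
  map_one' := by ext; simp
  map_mul' g h := by ext; simp

theorem bc_sub_add_quot : bc hM ρ = bc hM (subRep ρ W hW) + bc hM (quotRep ρ W hW) := by
  classical
  funext g
  rw [Pi.add_apply, bc, bc, bc]
  split_ifs
  · simp
  · rw [charpoly_eq_mul W (ρ g) (hW g), roots_mul (mul_ne_zero (LinearMap.charpoly_monic _).ne_zero
      (LinearMap.charpoly_monic _).ne_zero), Multiset.map_add, Multiset.sum_add]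
    rfl

theorem classScalar_sub {ω : G → RF hM} (h : ClassScalar ρ ω) : ClassScalar (subRep ρ W hW) ω := fun g v => by
  classical
  apply Subtype.ext
  rw [finsum_mem_eq_toFinset_sum, Submodule.coe_sum, Submodule.coe_smul, ← h g v, finsum_mem_eq_toFinset_sum]
  rfl

theorem classScalar_quot {ω : G → RF hM} (h : ClassScalar ρ ω) : ClassScalar (quotRep ρ W hW) ω := fun g v => by
  classical
  obtain ⟨v, rfl⟩ := Submodule.mkQ_surjective W v
  rw [← map_smul, ← h g v, finsum_mem_eq_toFinset_sum, finsum_mem_eq_toFinset_sum, map_sum]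
  rfl

end Rep

/-- The irreducible Brauer characters with given class scalars. -/
def IBrOf (G : Type*) [Group G] [Fintype G] (ω : G → RF hM) : Set (G → ℂ) :=
  {f | ∃ (n : ℕ) (ρ : Representation (RF hM) G (Fin n → RF hM)),
    ρ.IsIrreducible ∧ ClassScalar ρ ω ∧ f = bc hM ρ}

/-- The irreducible Brauer characters. -/
def IBr (G : Type*) [Group G] [Fintype G] : Set (G → ℂ) :=
  {f | ∃ (n : ℕ) (ρ : Representation (RF hM) G (Fin n → RF hM)), ρ.IsIrreducible ∧ f = bc hM ρ}

theorem iBrOf_subset (ω : G → RF hM) : IBrOf hM G ω ⊆ IBr hM G := fun _ ⟨n, ρ, h, _, e⟩ => ⟨n, ρ, h, e⟩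

/-- Every Brauer character is a sum of irreducible ones. -/
theorem bc_mem_closure_aux {V : Type} [AddCommGroup V] [Module (RF hM) V] [Module.Finite (RF hM) V]
    (ρ : Representation (RF hM) G V) (Ω : Set (G → RF hM)) (hω : ∀ ω ∈ Ω, ClassScalar ρ ω) :
    bc hM ρ ∈ AddSubmonoid.closure {f : G → ℂ | ∃ (n : ℕ) (σ : Representation (RF hM) G (Fin n → RF hM)),
      σ.IsIrreducible ∧ (∀ ω ∈ Ω, ClassScalar σ ω) ∧ f = bc hM σ} := by
  classical
  induction hd : finrank (RF hM) V using Nat.strong_induction_on generalizing V with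
  | _ d ih =>
  subst hd
  by_cases hz : finrank (RF hM) V = 0
  · convert zero_mem (AddSubmonoid.closure _)
    funext g
    rw [bc]
    split_ifs
    · rfl
    · rw [Multiset.card_eq_zero.1 (Nat.le_zero.1 ((card_roots' (ρ g).charpoly).trans
        (by rw [LinearMap.charpoly_natDegree, hz]))), Multiset.map_zero, Multiset.sum_zero, Pi.zero_apply]
  by_cases hirr : ∀ W : Submodule (RF hM) V, (∀ g : G, W ≤ W.comap (ρ g)) → W = ⊥ ∨ W = ⊤
  · set e := (Module.finBasis (RF hM) V).equivFun with he
    let σ : Representation (RF hM) G (Fin (finrank (RF hM) V) → RF hM) :=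
      { toFun := fun g => e.conj (ρ g)
        map_one' := by simp [LinearEquiv.conj_id, Module.End.one_eq_id]
        map_mul' := fun g h => by rw [map_mul, Module.End.mul_eq_comp, LinearEquiv.conj_comp]; rfl }
    refine AddSubmonoid.subset_closure ⟨_, σ, ?_, ?_, (bc_equiv ρ σ e fun g => rfl).symm⟩
    · haveI : Nontrivial (Subrepresentation σ) := by
        refine ⟨⟨⟨⊥, fun g v hv => by simp at hv; simp [hv]⟩, ⟨⊤, fun _ _ _ => trivial⟩, fun h => ?_⟩⟩
        have := congrArg (fun S : Subrepresentation σ => finrank (RF hM) S.toSubmodule) h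
        simp at this
        exact hz this.symm
      refine ⟨fun S => ?_⟩
      rcases hirr (S.toSubmodule.comap (e : V →ₗ[RF hM] Fin (finrank (RF hM) V) → RF hM)) (fun g v hv => by
        have := S.apply_mem_toSubmodule g hv
        simpa [σ, LinearEquiv.conj_apply_apply] using this) with h | h
      · left
        refine Subrepresentation.toSubmodule_injective (show S.toSubmodule = ⊥ from ?_)
        rw [← Submodule.map_comap_eq_of_surjective e.surjective S.toSubmodule, h, Submodule.map_bot]
      · right
        refine Subrepresentation.toSubmodule_injective (show S.toSubmodule = ⊤ from ?_)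
        rw [← Submodule.map_comap_eq_of_surjective e.surjective S.toSubmodule, h, Submodule.map_top,
          LinearEquiv.range]
    · intro ω hmem g v
      have := congrArg e (hω ω hmem g (e.symm v))
      rw [finsum_mem_eq_toFinset_sum, map_sum, map_smul, e.apply_symm_apply] at this
      rw [finsum_mem_eq_toFinset_sum]
      exact (Finset.sum_congr rfl fun x _ => rfl).trans this
  · push Not at hirr
    obtain ⟨W, hW, hb, ht⟩ := hirr
    rw [bc_sub_add_quot ρ W hW]
    refine add_mem (ih _ (Submodule.finrank_lt ht) (subRep ρ W hW) (fun ω h => classScalar_sub ρ W hW (hω ω h)) rfl)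
      (ih _ ?_ (quotRep ρ W hW) (fun ω h => classScalar_quot ρ W hW (hω ω h)) rfl)
    have h1 := Submodule.finrank_quotient_add_finrank W
    have h2 : finrank (RF hM) W ≠ 0 := fun h => hb (Submodule.finrank_eq_zero.1 h)
    omega

/-- Every Brauer character with class scalars is a sum of irreducible ones with the same scalars. -/
theorem bc_mem_closure {V : Type} [AddCommGroup V] [Module (RF hM) V] [Module.Finite (RF hM) V]
    (ρ : Representation (RF hM) G V) {ω : G → RF hM} (hω : ClassScalar ρ ω) :
    bc hM ρ ∈ AddSubmonoid.closure (IBrOf hM G ω) := by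
  refine AddSubmonoid.closure_mono ?_ (bc_mem_closure_aux hM ρ {ω} fun ω' h => by
    rw [Set.mem_singleton_iff.1 h]; exact hω)
  rintro f ⟨n, σ, h1, h2, h3⟩
  exact ⟨n, σ, h1, h2 ω rfl, h3⟩

theorem bc_mem_closure_IBr {V : Type} [AddCommGroup V] [Module (RF hM) V] [Module.Finite (RF hM) V]
    (ρ : Representation (RF hM) G V) : bc hM ρ ∈ AddSubmonoid.closure (IBr hM G) := by
  refine AddSubmonoid.closure_mono ?_ (bc_mem_closure_aux hM ρ ∅ fun ω h => h.elim)
  rintro f ⟨n, σ, h1, -, h3⟩
  exact ⟨n, σ, h1, h3⟩

end CfsgLib.BrauerChar
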