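import Cfsg.Agent.Blocks.BrauerChar.Decomp

/-!
# As many irreducible Brauer characters as `p`-regular classes
-/

set_option autoImplicit false
set_option linter.unusedSectionVars false
set_option linter.style.haveILetI false

namespace CfsgLib.BrauerChar

open Cfsg CfsgLib CfsgLib.Blocks CfsgLib.CharBasics
open scoped ComplexConjugate

variable {p : ℕ} {M : Ideal AlgInt} (hM : IsPModular p M) {G : Type*} [Group G] [Fintype G]

theorem card_IBr_eq_card_regular_classes :
    Nat.card (IBr hM G) =
      Nat.card {c : ConjClasses G // ∃ g : G, ConjClasses.mk g = c ∧ ¬ p ∣ orderOf g} := by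
  classical
  haveI : Fintype (IrrCharacter G) := @Fintype.ofFinite _ finite_irrCharacter
  set C := {c : ConjClasses G // ∃ g : G, ConjClasses.mk g = c ∧ ¬ p ∣ orderOf g}
  haveI : Fintype C := Fintype.ofFinite C
  let rep : C → G := fun c => c.2.choose
  have hrep : ∀ c : C, ConjClasses.mk (rep c) = c.1 ∧ ¬ p ∣ orderOf (rep c) := fun c => c.2.choose_spec
  let v : IBr hM G → C → ℂ := fun φ c => (φ : G → ℂ) (rep c)
  have hli : LinearIndependent ℂ v := by
    rw [Fintype.linearIndependent_iff]
    intro a ha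
    refine coeff_eq_zero hM (c := a) fun g => ?_
    by_cases hg : p ∣ orderOf g
    · exact Finset.sum_eq_zero fun φ _ => by rw [iBr_singular hM φ hg, mul_zero]
    · let c : C := ⟨ConjClasses.mk g, g, rfl, hg⟩
      obtain ⟨x, hx⟩ := isConj_iff.1 (ConjClasses.mk_eq_mk_iff_isConj.1 (hrep c).1)
      have h := congrFun ha c
      simp only [Finset.sum_apply, Pi.smul_apply, smul_eq_mul, Pi.zero_apply, v] at h
      rw [← h]
      refine Finset.sum_congr rfl fun φ _ => ?_
      rw [← hx, iBr_isClassFunction hM φ]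
  have hspan : ⊤ ≤ Submodule.span ℂ (Set.range v) := by
    rw [← (Pi.basisFun ℂ C).span_eq, Submodule.span_le]
    rintro _ ⟨c, rfl⟩
    have hne : (Nat.card (Subgroup.centralizer ({rep c} : Set G)) : ℂ) ≠ 0 :=
      Nat.cast_ne_zero.2 Nat.card_pos.ne'
    have e : Pi.basisFun ℂ C c = (Nat.card (Subgroup.centralizer ({rep c} : Set G)) : ℂ)⁻¹ •
        ∑ φ : IBr hM G, conj (Phi hM φ (rep c)) • v φ := by
      funext d
      simp only [Pi.basisFun_apply, Pi.smul_apply, Finset.sum_apply, smul_eq_mul, v]
      rw [Finset.sum_congr rfl fun φ _ => mul_comm _ _, sum_iBr_conj_Phi hM (hrep d).2]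
      by_cases hd : d = c
      · subst hd
        rw [Pi.single_eq_same, if_pos (IsConj.refl _), inv_mul_cancel₀ hne]
      · rw [Pi.single_eq_of_ne hd, if_neg fun h => hd (Subtype.ext (by
          rw [← (hrep d).1, ← (hrep c).1, ConjClasses.mk_eq_mk_iff_isConj.2 h])), mul_zero]
    rw [SetLike.mem_coe, e]
    exact Submodule.smul_mem _ _
      (Submodule.sum_mem _ fun φ _ => Submodule.smul_mem _ _ (Submodule.subset_span ⟨φ, rfl⟩))
  have := Module.finrank_eq_card_basis (Module.Basis.mk hli hspan)
  rw [Module.finrank_fintype_fun_eq_card] at this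
  rw [Nat.card_eq_fintype_card, Nat.card_eq_fintype_card, this]

end CfsgLib.BrauerChar
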