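import Cfsg.Agent.Blocks.BrauerChar.Basic

/-!
# Reduction of an irreducible character at the place
-/

set_option autoImplicit false
set_option linter.unusedSectionVars false
set_option linter.style.haveILetI false

namespace CfsgLib.BrauerChar

open Cfsg CfsgLib CfsgLib.Blocks CfsgLib.CharBasics Representation Module Polynomial

variable {p : ℕ} {M : Ideal AlgInt} (hM : IsPModular p M) {G : Type*} [Group G] [Fintype G]

/-- The reduced central character. -/
noncomputable def omegaBar (χ : IrrCharacter G) (g : G) : RF hM :=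
  res hM ⟨centralChar (χ : G → ℂ) g, mem_plc hM (memLocalRing_centralChar hM χ g)⟩

theorem classSum_eq {n : ℕ} {ρ : Representation ℂ G (Fin n → ℂ)} (hirr : ρ.IsIrreducible) (g : G)
    [DecidablePred fun x => x ∈ {y : G | IsConj g y}] :
    ∑ x ∈ Finset.univ.filter (fun x => x ∈ {y : G | IsConj g y}), ρ x =
      centralChar ρ.character g • (1 : Module.End ℂ (Fin n → ℂ)) := by
  classical
  haveI := hirr
  have hirrc : IsIrrCharacter G ρ.character := ⟨n, ρ, hirr, rfl⟩
  have hn : (ρ.character 1) ≠ 0 := apply_one_ne_zero hirrc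
  set K := Finset.univ.filter fun x => x ∈ {y : G | IsConj g y} with hKdef
  have hmem : ∀ x, x ∈ K ↔ IsConj g x := fun x => by simp [hKdef]
  let T : Module.End ℂ (Fin n → ℂ) := ∑ x ∈ K, ρ x
  have hT : ∀ a, ρ a ∘ₗ T = T ∘ₗ ρ a := by
    intro a
    simp only [T, ← Module.End.mul_eq_comp, Finset.mul_sum, Finset.sum_mul, ← map_mul]
    refine Finset.sum_equiv (MulAut.conj a).toEquiv (fun x => ?_) (fun x _ => ?_)
    · show x ∈ K ↔ a * x * a⁻¹ ∈ K
      simp only [hmem]
      exact ⟨fun k => k.trans (isConj_iff.mpr ⟨a, rfl⟩), fun k => k.trans (isConj_iff.mpr ⟨a, rfl⟩).symm⟩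
    · show ρ (a * x) = ρ (a * x * a⁻¹ * a)
      rw [inv_mul_cancel_right]
  obtain ⟨c, hc, htr⟩ := commute_eq_scalar ρ T hT
  have hKcard : K.card = (Subgroup.centralizer ({g} : Set G)).index := by
    rw [← card_conjClass, Nat.card_eq_fintype_card, Fintype.card_subtype]
    congr 1
    ext x
    simp [hmem]
  have h1 : LinearMap.trace ℂ _ T = (K.card : ℂ) * ρ.character g := by
    simp only [T, map_sum]
    change ∑ x ∈ K, ρ.character x = _
    rw [Finset.sum_congr rfl (g := fun _ => ρ.character g)
      (fun x hx => (apply_isConj (χ := ρ.character) ⟨n, ρ, rfl⟩ ((hmem x).1 hx)).symm),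
      Finset.sum_const, nsmul_eq_mul]
  have hceq : centralChar ρ.character g = c := by
    rw [centralChar, ← hKcard, ← h1, htr, div_eq_iff hn, char_one, Module.finrank_fin_fun]
  rw [hceq]
  show T = _
  rw [hc]
  rfl

theorem roots_reduce {P : Polynomial (plc hM)} (hP : P.Monic) {m : ℕ} (hm : ¬ p ∣ m)
    (hroot : ∀ z ∈ (P.map (plc hM).subtype).roots, z ^ m = 1) :
    ((P.map (res hM)).roots.map (teich hM)).sum = (P.map (plc hM).subtype).roots.sum := by
  classical
  have hm0 : 0 < m := Nat.pos_of_ne_zero fun h => hm (h ▸ dvd_zero p)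
  set s := (P.map (plc hM).subtype).roots with hs
  have hint : ∀ z ∈ s, z ∈ plc hM := fun z hz =>
    mem_plc_of_isIntegral hM (IsIntegral.of_pow hm0 (by rw [hroot z hz]; exact isIntegral_one))
  set s' : Multiset (plc hM) := s.pmap (fun z h => ⟨z, h⟩) hint with hs'
  have hsub : s'.map (plc hM).subtype = s := by
    rw [hs', Multiset.map_pmap]
    simp [Multiset.pmap_eq_map]
  have hprod : P = (s'.map fun z => X - C z).prod := by
    apply Polynomial.map_injective (plc hM).subtype Subtype.val_injective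
    rw [Polynomial.map_multiset_prod, Multiset.map_map]
    conv_lhs => rw [(IsAlgClosed.splits (P.map (plc hM).subtype)).eq_prod_roots_of_monic (hP.map _), ← hs, ← hsub,
      Multiset.map_map]
    simp [Function.comp_def]
  have hres : (P.map (res hM)).roots = s'.map (res hM) := by
    conv_lhs => rw [hprod, Polynomial.map_multiset_prod, Multiset.map_map]
    rw [show ((Polynomial.map (res hM)) ∘ fun z => X - C z) = (fun x => X - C x) ∘ (res hM) by
      funext z; simp, ← Multiset.map_map, roots_multiset_prod_X_sub_C]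
  rw [hres, Multiset.map_map]
  conv_rhs => rw [← hsub]
  refine congrArg Multiset.sum (Multiset.map_congr rfl fun z hz => ?_)
  refine teich_res hM hm (Subtype.ext ?_)
  have : (z : ℂ) ∈ s := by rw [← hsub]; exact Multiset.mem_map_of_mem _ hz
  rw [SubmonoidClass.coe_pow]
  exact hroot _ this

theorem exists_integral_model (χ : IrrCharacter G) :
    ∃ (n m : ℕ) (ρ : Representation ℂ G (Fin n → ℂ)) (B : Basis (Fin m) ℂ (Fin n → ℂ))
      (A : G →* Matrix (Fin m) (Fin m) (plc hM)), ρ.IsIrreducible ∧ ρ.character = (χ : G → ℂ) ∧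
      ∀ g, (A g).map (plc hM).subtype = LinearMap.toMatrix B B (ρ g) := by
  classical
  obtain ⟨n, ρ, hirr, hχ⟩ := χ.2
  let L : Submodule (plc hM) (Fin n → ℂ) :=
    Submodule.span (plc hM) (Set.range fun q : G × Fin n => ρ q.1 (Pi.single q.2 1))
  have hinv : ∀ g : G, ∀ v ∈ L, ρ g v ∈ L := by
    intro g v hv
    induction hv using Submodule.span_induction with
    | mem w hw =>
      obtain ⟨⟨x, i⟩, rfl⟩ := hw
      refine Submodule.subset_span ⟨(g * x, i), ?_⟩
      show ρ (g * x) _ = ρ g (ρ x _)
      rw [map_mul]; rfl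
    | zero => simp
    | add a b _ _ ha hb => rw [map_add]; exact add_mem ha hb
    | smul a w _ hw =>
      show ρ g ((a : ℂ) • w) ∈ L
      rw [map_smul]
      exact L.smul_mem a hw
  haveI : Submodule.IsLattice ℂ L := by
    refine ⟨Submodule.fg_span (Set.finite_range _), ?_⟩
    rw [eq_top_iff, ← (Pi.basisFun ℂ (Fin n)).span_eq, Submodule.span_le]
    rintro _ ⟨i, rfl⟩
    refine Submodule.subset_span (Submodule.subset_span ⟨(1, i), ?_⟩)
    simp
  haveI : Module.Finite (plc hM) L := Module.Finite.iff_fg.2 (Submodule.fg_span (Set.finite_range _))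
  haveI : Module.Flat (plc hM) L := by
    rw [Module.Flat.flat_iff_torsion_eq_bot_of_isBezout, ← Submodule.isTorsionFree_iff_torsion_eq_bot]
    infer_instance
  haveI : Module.Free (plc hM) L := Module.free_of_flat_of_isLocalRing
  let b := Module.finBasis (plc hM) L
  let B := b.extendOfIsLattice ℂ
  let R : G →* Module.End (plc hM) L :=
    { toFun := fun g => ((ρ g).restrictScalars (plc hM)).restrict (hinv g)
      map_one' := LinearMap.ext fun v => Subtype.ext (by simp)
      map_mul' := fun g h => LinearMap.ext fun v => Subtype.ext (by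
        show ρ (g * h) (v : Fin n → ℂ) = ρ g (ρ h v)
        rw [map_mul]; rfl) }
  refine ⟨n, finrank (plc hM) L, ρ, B, (LinearMap.toMatrixAlgEquiv b).toRingEquiv.toRingHom.toMonoidHom.comp R,
    hirr, hχ, fun g => ?_⟩
  ext i j
  show ((LinearMap.toMatrix b b (R g)) i j : ℂ) = _
  rw [LinearMap.toMatrix_apply, LinearMap.toMatrix_apply]
  have h1 : ρ g (B j) = ∑ k, ((b.repr (R g (b j)) k : plc hM) : ℂ) • B k := by
    rw [Basis.extendOfIsLattice_apply]
    have h2 := congrArg L.subtype (b.sum_repr (R g (b j))).symm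
    rw [map_sum] at h2
    refine h2.trans (Finset.sum_congr rfl fun k _ => ?_)
    rw [map_smul, Basis.extendOfIsLattice_apply]
    rfl
  rw [h1, B.repr_sum_self]

/-- The reduction of an integral matrix representation. -/
noncomputable def reduceRep {m : ℕ} (A : G →* Matrix (Fin m) (Fin m) (plc hM)) :
    Representation (RF hM) G (Fin m → RF hM) :=
  (Matrix.toLinAlgEquiv' : Matrix _ _ (RF hM) ≃ₐ[RF hM] _).toRingEquiv.toRingHom.toMonoidHom.comp
    ((res hM).mapMatrix.toMonoidHom.comp A)

theorem bc_reduceRep {n m : ℕ} {ρ : Representation ℂ G (Fin n → ℂ)} {B : Basis (Fin m) ℂ (Fin n → ℂ)}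
    {A : G →* Matrix (Fin m) (Fin m) (plc hM)} (hA : ∀ g, (A g).map (plc hM).subtype = LinearMap.toMatrix B B (ρ g))
    {g : G} (hg : ¬ p ∣ orderOf g) : bc hM (reduceRep hM A) g = ρ.character g := by
  classical
  have hσ : (reduceRep hM A g).charpoly = (A g).charpoly.map (res hM) := by
    rw [← Matrix.charpoly_map, ← Matrix.charpoly_toLin']
    rfl
  have hρ : (ρ g).charpoly = (A g).charpoly.map (plc hM).subtype := by
    rw [← Matrix.charpoly_map, hA, LinearMap.charpoly_toMatrix]
  rw [bc_regular (reduceRep hM A) hg, hσ, roots_reduce hM (Matrix.charpoly_monic _) hg ?_, ← hρ,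
    ← Module.End.trace_eq_sum_roots_charpoly_of_splits (IsAlgClosed.splits _)]
  · rfl
  · intro z hz
    rw [← hρ] at hz
    have h := (Module.End.hasEigenvalue_iff_isRoot_charpoly (ρ g) z).2 (isRoot_of_mem_roots hz)
    obtain ⟨v, hv⟩ := h.exists_hasEigenvector
    have h1 := hv.pow_apply (orderOf g)
    rw [← map_pow, pow_orderOf_eq_one, map_one, Module.End.one_apply] at h1
    exact (smul_left_injective ℂ hv.2 (h1.symm.trans (one_smul _ v).symm))

theorem exists_reduction (χ : IrrCharacter G) :
    ∃ (n : ℕ) (σ : Representation (RF hM) G (Fin n → RF hM)),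
      (∀ g, ¬ p ∣ orderOf g → bc hM σ g = (χ : G → ℂ) g) ∧ ClassScalar σ (omegaBar hM χ) := by
  classical
  obtain ⟨n, m, ρ, B, A, hirr, hχ, hA⟩ := exists_integral_model hM χ
  refine ⟨m, reduceRep hM A, fun g hg => by rw [bc_reduceRep hM hA hg, hχ], fun g v => ?_⟩
  let c : plc hM := ⟨centralChar (χ : G → ℂ) g, mem_plc hM (memLocalRing_centralChar hM χ g)⟩
  have h : ∑ x ∈ Finset.univ.filter (fun x => x ∈ {y : G | IsConj g y}), A x = c • (1 : Matrix (Fin m) (Fin m) _) := by
    apply Matrix.ext
    intro i j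
    apply Subtype.val_injective
    have h1 := congrArg (LinearMap.toMatrix B B) (classSum_eq hirr g)
    rw [map_sum, map_smul, LinearMap.toMatrix_one, hχ] at h1
    simp only [← hA] at h1
    have h2 := congrFun (congrFun h1 i) j
    rw [Matrix.sum_apply] at h2
    rw [Matrix.sum_apply, AddSubmonoidClass.coe_finset_sum]
    refine h2.trans ?_
    simp [c, Matrix.one_apply, apply_ite Subtype.val]
  have h2 := LinearMap.congr_fun (congrArg (fun X => Matrix.toLinAlgEquiv' ((res hM).mapMatrix X)) h) v
  rw [map_sum, map_sum, LinearMap.sum_apply] at h2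
  rw [finsum_mem_eq_toFinset_sum]
  refine (Finset.sum_congr ?_ fun x _ => rfl).trans (h2.trans ?_)
  · ext x; simp
  · simp [omegaBar, c, Algebra.smul_def, Matrix.algebraMap_eq_diagonal]

end CfsgLib.BrauerChar
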