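import Cfsg.Agent.Blocks.BrauerChar.Indep
import Cfsg.Agent.Blocks.BrauerChar.Reduction
import Cfsg.Agent.Blocks.SumSqDegree
import Cfsg.Agent.Blocks.RegularRank
import Cfsg.Agent.Blocks.Subsection

/-!
# Decomposition numbers and projective characters
-/

set_option autoImplicit false
set_option linter.unusedSectionVars false
set_option linter.style.haveILetI false

namespace CfsgLib.BrauerChar

open Cfsg CfsgLib CfsgLib.Blocks CfsgLib.CharBasics
open scoped ComplexConjugate

variable {p : ℕ} {M : Ideal AlgInt} (hM : IsPModular p M) {G : Type*} [Group G] [Fintype G]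

noncomputable instance instFintypeIBr : Fintype (IBr hM G) := finite_IBr.fintype

theorem omegaBar_eq_iff (χ ψ : IrrCharacter G) :
    omegaBar hM χ = omegaBar hM ψ ↔ SameBlock M (χ : G → ℂ) (ψ : G → ℂ) := by
  have hsub : ∀ g, MemLocalRing M (centralChar (χ : G → ℂ) g - centralChar (ψ : G → ℂ) g) := fun g => by
    rw [sub_eq_add_neg]
    exact memLocalRing_add hM (memLocalRing_centralChar hM χ g) (memLocalRing_neg (memLocalRing_centralChar hM ψ g))
  refine ⟨fun h g => ?_, fun h => funext fun g => ?_⟩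
  · refine (res_eq_zero hM (z := ⟨_, mem_plc hM (hsub g)⟩) (hsub g)).1 ?_
    have := sub_eq_zero.2 (congrFun h g)
    rw [omegaBar, omegaBar, ← map_sub] at this
    exact this
  · have := (res_eq_zero hM (z := ⟨_, mem_plc hM (hsub g)⟩) (hsub g)).2 (h g)
    rw [omegaBar, omegaBar, ← sub_eq_zero, ← map_sub]
    exact this

theorem exists_decomp (χ : IrrCharacter G) : ∃ d : IBr hM G → ℕ,
    (∀ g : G, ¬ p ∣ orderOf g → (χ : G → ℂ) g = ∑ φ : IBr hM G, (d φ : ℂ) * (φ : G → ℂ) g) ∧
    ∀ φ : IBr hM G, d φ ≠ 0 → (φ : G → ℂ) ∈ IBrOf hM G (omegaBar hM χ) := by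
  classical
  obtain ⟨n, σ, hσ, hω⟩ := exists_reduction hM χ
  have key : ∀ f ∈ AddSubmonoid.closure (IBrOf hM G (omegaBar hM χ)), ∃ d : IBr hM G → ℕ,
      (∀ g, f g = ∑ φ : IBr hM G, (d φ : ℂ) * (φ : G → ℂ) g) ∧
      ∀ φ : IBr hM G, d φ ≠ 0 → (φ : G → ℂ) ∈ IBrOf hM G (omegaBar hM χ) := by
    intro f hf
    induction hf using AddSubmonoid.closure_induction with
    | mem f hf =>
      refine ⟨fun φ => if (φ : G → ℂ) = f then 1 else 0, fun g => ?_, fun φ hφ => ?_⟩
      · rw [Finset.sum_eq_single ⟨f, iBrOf_subset hM _ hf⟩]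
        · simp
        · intro φ _ hne
          show ((if (φ : G → ℂ) = f then 1 else 0 : ℕ) : ℂ) * _ = 0
          rw [if_neg (fun h => hne (Subtype.ext h)), Nat.cast_zero, zero_mul]
        · exact fun h => absurd (Finset.mem_univ _) h
      · by_cases h : (φ : G → ℂ) = f
        · rw [h]; exact hf
        · simp [h] at hφ
    | zero => exact ⟨fun _ => 0, fun g => by simp, fun φ h => absurd rfl h⟩
    | add a b _ _ ha hb =>
      obtain ⟨d, hd, hd'⟩ := ha
      obtain ⟨e, he, he'⟩ := hb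
      refine ⟨fun φ => d φ + e φ, fun g => ?_, fun φ h => ?_⟩
      · rw [Pi.add_apply, hd, he, ← Finset.sum_add_distrib]
        exact Finset.sum_congr rfl fun φ _ => by push_cast; ring
      · by_cases h' : d φ = 0
        · exact he' φ (by simpa [h'] using h)
        · exact hd' φ h'
  obtain ⟨d, hd, hd'⟩ := key _ (bc_mem_closure hM σ hω)
  exact ⟨d, fun g hg => by rw [← hd g, hσ g hg], hd'⟩

/-- The decomposition numbers. -/
noncomputable def dec (χ : IrrCharacter G) (φ : IBr hM G) : ℕ := (exists_decomp hM χ).choose φ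

theorem iBr_singular (φ : IBr hM G) {g : G} (hg : p ∣ orderOf g) : (φ : G → ℂ) g = 0 := by
  obtain ⟨n, ρ, -, h⟩ := φ.2
  rw [h]; exact bc_singular ρ hg

theorem iBr_isClassFunction (φ : IBr hM G) : IsClassFunction G (φ : G → ℂ) := by
  obtain ⟨n, ρ, -, h⟩ := φ.2
  rw [h]; exact bc_isClassFunction ρ

theorem iBr_isIntegral (φ : IBr hM G) (g : G) : IsIntegral ℤ ((φ : G → ℂ) g) := by
  obtain ⟨n, ρ, -, h⟩ := φ.2
  rw [h]; exact isIntegral_bc ρ g

theorem apply_eq_sum_dec (χ : IrrCharacter G) {g : G} (hg : ¬ p ∣ orderOf g) :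
    (χ : G → ℂ) g = ∑ φ : IBr hM G, (dec hM χ φ : ℂ) * (φ : G → ℂ) g :=
  (exists_decomp hM χ).choose_spec.1 g hg

theorem regularPart_eq_sum_dec (χ : IrrCharacter G) :
    pRegularPart p (χ : G → ℂ) = ∑ φ : IBr hM G, (dec hM χ φ : ℂ) • (φ : G → ℂ) := by
  funext g
  rw [pRegularPart_eq, Finset.sum_apply]
  simp only [Pi.smul_apply, smul_eq_mul]
  by_cases hg : p ∣ orderOf g
  · rw [if_pos hg, Finset.sum_eq_zero fun φ _ => by rw [iBr_singular hM φ hg, mul_zero]]
  · rw [if_neg hg, apply_eq_sum_dec hM χ hg]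

/-- Irreducible Brauer characters are linearly independent. -/
theorem coeff_eq_zero {c : IBr hM G → ℂ} (h : ∀ g : G, ∑ φ : IBr hM G, c φ * (φ : G → ℂ) g = 0) :
    ∀ φ, c φ = 0 := by
  refine Fintype.linearIndependent_iff.1 (linearIndependent_IBr (hM := hM) (G := G)) c ?_
  funext g
  simpa [Finset.sum_apply] using h g

theorem sameBlock_of_dec {χ ψ : IrrCharacter G} {φ : IBr hM G} (h : dec hM χ φ ≠ 0) (h' : dec hM ψ φ ≠ 0) :
    SameBlock M (χ : G → ℂ) (ψ : G → ℂ) :=
  (omegaBar_eq_iff hM χ ψ).1 (omega_unique ((exists_decomp hM χ).choose_spec.2 φ h)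
    ((exists_decomp hM ψ).choose_spec.2 φ h'))

theorem mem_iff_of_dec {B : Set (IrrCharacter G)} (hB : IsPBlock M B) {χ ψ : IrrCharacter G} {φ : IBr hM G}
    (h : dec hM χ φ ≠ 0) (h' : dec hM ψ φ ≠ 0) : χ ∈ B ↔ ψ ∈ B := by
  have hs := sameBlock_of_dec hM h h'
  exact ⟨fun hχ => (IsPBlock.mem_iff hM hB hχ).2 hs, fun hψ => (IsPBlock.mem_iff hM hB hψ).2 (sameBlock_symm hs)⟩

/-- Each irreducible Brauer character occurs in the reduction of a character. -/
theorem exists_dec_ne_zero (φ : IBr hM G) : ∃ χ : IrrCharacter G, dec hM χ φ ≠ 0 := by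
  classical
  haveI : Fintype (IrrCharacter G) := @Fintype.ofFinite _ finite_irrCharacter
  by_contra h
  push Not at h
  have e := classFun_expand (iBr_isClassFunction hM φ)
  set a := fun χ : IrrCharacter G => classInner (φ : G → ℂ) (χ : G → ℂ) with ha
  have := coeff_eq_zero hM (c := fun ψ : IBr hM G => (if ψ = φ then 1 else 0) -
    ∑ χ : IrrCharacter G, a χ * (dec hM χ ψ : ℂ)) (fun g => ?_) φ
  · simp [h] at this
  rw [Finset.sum_congr rfl (g := fun ψ : IBr hM G => (if ψ = φ then (ψ : G → ℂ) g else 0) -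
    ∑ χ : IrrCharacter G, a χ * ((dec hM χ ψ : ℂ) * (ψ : G → ℂ) g)) fun ψ _ => by
      rw [sub_mul, Finset.sum_mul]; congr 1
      · split_ifs <;> simp
      · exact Finset.sum_congr rfl fun χ _ => by ring,
    Finset.sum_sub_distrib, Finset.sum_ite_eq' Finset.univ φ, if_pos (Finset.mem_univ φ), Finset.sum_comm]
  by_cases hg : p ∣ orderOf g
  · rw [iBr_singular hM φ hg, Finset.sum_eq_zero fun χ _ => Finset.sum_eq_zero fun ψ _ => by
      rw [iBr_singular hM ψ hg]; ring, sub_zero]
  · simp only [← Finset.mul_sum, ← apply_eq_sum_dec hM _ hg]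
    conv_lhs => arg 1; rw [e]
    rw [Finset.sum_apply]
    simp [ha]

/-- The irreducible Brauer characters of a block. -/
def IBrB (B : Set (IrrCharacter G)) : Set (IBr hM G) := {φ | ∃ χ ∈ B, dec hM χ φ ≠ 0}

theorem dec_eq_zero_of_not_mem {B : Set (IrrCharacter G)} (hB : IsPBlock M B) {χ : IrrCharacter G}
    {φ : IBr hM G} (hχ : χ ∈ B) (hφ : φ ∉ IBrB hM B) : dec hM χ φ = 0 := by
  by_contra h
  exact hφ ⟨χ, hχ, h⟩

theorem mem_of_mem_IBrB {B : Set (IrrCharacter G)} (hB : IsPBlock M B) {χ : IrrCharacter G}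
    {φ : IBr hM G} (hφ : φ ∈ IBrB hM B) (h : dec hM χ φ ≠ 0) : χ ∈ B := by
  obtain ⟨ψ, hψ, hd⟩ := hφ
  exact (mem_iff_of_dec hM hB h hd).2 hψ

/-- The projective indecomposable characters. -/
noncomputable def Phi [Fintype (IrrCharacter G)] (φ : IBr hM G) (g : G) : ℂ :=
  ∑ χ : IrrCharacter G, (dec hM χ φ : ℂ) * (χ : G → ℂ) g

variable [Fintype (IrrCharacter G)]

theorem sum_iBr_conj_Phi {x : G} (hx : ¬ p ∣ orderOf x) (y : G) [Decidable (IsConj x y)] :
    ∑ φ : IBr hM G, (φ : G → ℂ) x * conj (Phi hM φ y) =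
      if IsConj x y then (Nat.card (Subgroup.centralizer ({x} : Set G)) : ℂ) else 0 := by
  classical
  rw [← sum_col x y]
  simp only [Phi, map_sum, map_mul, Complex.conj_natCast, Finset.mul_sum]
  rw [Finset.sum_comm]
  refine Finset.sum_congr rfl fun χ _ => ?_
  rw [apply_eq_sum_dec hM χ hx, Finset.sum_mul]
  exact Finset.sum_congr rfl fun φ _ => by ring

/-- Projective characters vanish on the singular elements. -/
theorem Phi_singular (φ : IBr hM G) {y : G} (hy : p ∣ orderOf y) : Phi hM φ y = 0 := by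
  classical
  have h := coeff_eq_zero hM (c := fun ψ : IBr hM G => conj (Phi hM ψ y)) (fun x => ?_) φ
  · exact star_eq_zero.1 h
  by_cases hx : p ∣ orderOf x
  · exact Finset.sum_eq_zero fun ψ _ => by rw [iBr_singular hM ψ hx, mul_zero]
  · rw [Finset.sum_congr rfl fun ψ _ => mul_comm _ _, sum_iBr_conj_Phi hM hx, if_neg]
    intro hc
    obtain ⟨c, rfl⟩ := isConj_iff.1 hc
    exact hx (by rwa [show orderOf (c * x * c⁻¹) = orderOf x from
      orderOf_injective (MulAut.conj c).toMonoidHom (MulAut.conj c).injective x] at hy)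

/-- The duality between Brauer and projective characters. -/
theorem inner_Phi (φ ψ : IBr hM G) :
    ∑ y : G, (φ : G → ℂ) y * conj (Phi hM ψ y) = if φ = ψ then (Nat.card G : ℂ) else 0 := by
  classical
  have h := coeff_eq_zero hM (c := fun ψ : IBr hM G => (∑ y : G, (φ : G → ℂ) y * conj (Phi hM ψ y)) -
    if ψ = φ then (Nat.card G : ℂ) else 0) (fun x => ?_) ψ
  · rw [sub_eq_zero.1 h]
    by_cases hh : φ = ψ <;> simp [hh, eq_comm]
  simp only [sub_mul, Finset.sum_sub_distrib, ite_mul, zero_mul, Finset.sum_ite_eq', Finset.mem_univ, if_true]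
  by_cases hx : p ∣ orderOf x
  · rw [iBr_singular hM φ hx, Finset.sum_eq_zero fun ψ _ => by rw [iBr_singular hM ψ hx, mul_zero], mul_zero,
      sub_zero]
  rw [sub_eq_zero, Finset.sum_congr rfl fun ψ _ => Finset.sum_mul _ _ _, Finset.sum_comm,
    Finset.sum_congr rfl (g := fun y : G => (φ : G → ℂ) y *
      (if IsConj x y then (Nat.card (Subgroup.centralizer ({x} : Set G)) : ℂ) else 0)) fun y _ => by
      rw [← sum_iBr_conj_Phi hM hx, Finset.mul_sum]
      exact Finset.sum_congr rfl fun ψ _ => by ring]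
  simp only [mul_ite, mul_zero, ← Finset.sum_filter]
  rw [Finset.sum_congr rfl (g := fun _ => (φ : G → ℂ) x * (Nat.card (Subgroup.centralizer ({x} : Set G)) : ℂ))
    fun y hy => by
      obtain ⟨c, rfl⟩ := isConj_iff.1 (Finset.mem_filter.1 hy).2
      rw [iBr_isClassFunction hM φ], Finset.sum_const, nsmul_eq_mul,
    ← Fintype.card_subtype, ← Nat.card_eq_fintype_card, card_conjClass,
    mul_comm ((φ : G → ℂ) x), ← mul_assoc, ← Nat.cast_mul, Subgroup.index_mul_card]

/-- The kernel of a block on the regular elements. -/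
theorem blockKernel_eq_sum_IBr {B : Set (IrrCharacter G)} [DecidablePred (· ∈ IBrB hM B)] (hB : IsPBlock M B)
    {x : G} (hx : ¬ p ∣ orderOf x) (y : G) :
    blockKernel B x y = ∑ φ ∈ Finset.univ.filter (· ∈ IBrB hM B), (φ : G → ℂ) x * conj (Phi hM φ y) := by
  classical
  rw [blockKernel_eq]
  simp only [Phi, map_sum, map_mul, Complex.conj_natCast, Finset.mul_sum]
  rw [Finset.sum_comm, Finset.sum_filter]
  refine Finset.sum_congr rfl fun χ _ => ?_
  split_ifs with hχ
  · rw [apply_eq_sum_dec hM χ hx, Finset.sum_mul, Finset.sum_filter]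
    refine Finset.sum_congr rfl fun φ _ => ?_
    split_ifs with hφ
    · ring
    · rw [dec_eq_zero_of_not_mem hM hB hχ hφ, Nat.cast_zero, zero_mul, zero_mul]
  · refine (Finset.sum_eq_zero fun φ hφ => ?_).symm
    rw [show dec hM χ φ = 0 from by_contra fun h => hχ (mem_of_mem_IBrB hM hB (Finset.mem_filter.1 hφ).2 h),
      Nat.cast_zero, zero_mul, mul_zero]

/-- The rank of a block is its number of irreducible Brauer characters. -/
theorem blockRank_eq_card {B : Set (IrrCharacter G)} (hB : IsPBlock M B) :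
    blockRank p B = Nat.card (IBrB hM B) := by
  classical
  set v : IBrB hM B → G → ℂ := fun φ => ((φ : IBr hM G) : G → ℂ) with hv
  have hli : LinearIndependent ℂ v := (linearIndependent_IBr (hM := hM) (G := G)).comp _ Subtype.val_injective
  have hspan : Submodule.span ℂ ((fun χ : IrrCharacter G => pRegularPart p (χ : G → ℂ)) '' B) =
      Submodule.span ℂ (Set.range v) := by
    refine le_antisymm (Submodule.span_le.2 ?_) (Submodule.span_le.2 ?_)
    · rintro _ ⟨χ, hχ, rfl⟩
      show pRegularPart p (χ : G → ℂ) ∈ _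
      rw [regularPart_eq_sum_dec hM χ]
      refine Submodule.sum_mem _ fun φ _ => ?_
      by_cases hφ : φ ∈ IBrB hM B
      · exact Submodule.smul_mem _ _ (Submodule.subset_span ⟨⟨φ, hφ⟩, rfl⟩)
      · rw [dec_eq_zero_of_not_mem hM hB hχ hφ]; simp
    · rintro _ ⟨φ, rfl⟩
      have e : v φ = (Nat.card G : ℂ)⁻¹ • ∑ χ : IrrCharacter G, (if χ ∈ B then
          ∑ z : G, v φ z * conj ((χ : G → ℂ) z) else 0) • pRegularPart p (χ : G → ℂ) := by
        funext g
        simp only [Pi.smul_apply, Finset.sum_apply, smul_eq_mul, pRegularPart_eq]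
        by_cases hg : p ∣ orderOf g
        · simp [hv, hg, iBr_singular hM _ hg]
        simp only [if_neg hg]
        have h1 : ∑ χ : IrrCharacter G, (if χ ∈ B then ∑ z : G, v φ z * conj ((χ : G → ℂ) z) else 0) *
            (χ : G → ℂ) g = ∑ z : G, v φ z * blockKernel B g z := by
          simp only [blockKernel_eq, Finset.mul_sum]
          rw [Finset.sum_comm, Finset.sum_filter]
          refine Finset.sum_congr rfl fun χ _ => ?_
          split_ifs
          · rw [Finset.sum_mul]; exact Finset.sum_congr rfl fun z _ => by ring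
          · rw [zero_mul]
        rw [h1, Finset.sum_congr rfl fun z _ => by rw [blockKernel_eq_sum_IBr hM hB hg z, Finset.mul_sum],
          Finset.sum_comm, Finset.sum_congr rfl (g := fun ψ : IBr hM G => (ψ : G → ℂ) g *
            if (φ : IBr hM G) = ψ then (Nat.card G : ℂ) else 0) fun ψ _ => by
            rw [← inner_Phi hM, Finset.mul_sum]
            exact Finset.sum_congr rfl fun z _ => by rw [hv]; ring,
          Finset.sum_eq_single (φ : IBr hM G) (fun ψ _ h => by rw [if_neg (Ne.symm h), mul_zero])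
            (fun h => absurd (Finset.mem_filter.2 ⟨Finset.mem_univ _, φ.2⟩) h), if_pos rfl,
          mul_comm (((φ : IBr hM G) : G → ℂ) g), inv_mul_cancel_left₀ (Nat.cast_ne_zero.2 Nat.card_pos.ne')]
      rw [SetLike.mem_coe, e]
      refine Submodule.smul_mem _ _ (Submodule.sum_mem _ fun χ _ => ?_)
      split_ifs with hχ
      · exact Submodule.smul_mem _ _ (Submodule.subset_span ⟨χ, hχ, rfl⟩)
      · simp
  rw [blockRank, hspan, finrank_span_eq_card hli, Nat.card_eq_fintype_card]

end CfsgLib.BrauerChar
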