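import Cfsg.Agent.Blocks.BrauerChar.Span
import Cfsg.Agent.Blocks.DefectGroup

/-!
# The sum of the squares of the degrees of a block
-/

set_option autoImplicit false
set_option linter.unusedSectionVars false
set_option linter.style.haveILetI false

namespace CfsgLib.BrauerChar

open Cfsg CfsgLib CfsgLib.Blocks CfsgLib.CharBasics

variable {p : ℕ} {M : Ideal AlgInt} {G : Type*} [Group G] [Fintype G]

theorem degree_square_sum (hM : IsPModular p M) {B : Set (IrrCharacter G)} (hB : IsPBlock M B) {D : Subgroup G}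
    (hD : IsDefectGroup p M B D) {a d g : ℕ} (ha : (Nat.card G).factorization p = a) (hd : Nat.card D = p ^ d)
    (hg1 : ∀ χ ∈ B, g ∣ charDegree (χ : G → ℂ))
    (hg2 : ∀ g' : ℕ, (∀ χ ∈ B, g' ∣ charDegree (χ : G → ℂ)) → g' ∣ g) :
    g.factorization p = a - d ∧ ∃ v : ℕ, 0 < v ∧ ¬ p ∣ v ∧ blockRank p B ≤ v ∧
      ∑ᶠ χ ∈ B, charDegree (χ : G → ℂ) ^ 2 = p ^ (2 * a - d) * (g / p ^ (a - d)) ^ 2 * v := by
  classical
  haveI : Fintype (IrrCharacter G) := @Fintype.ofFinite _ finite_irrCharacter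
  have hp := hM.1
  obtain ⟨θ, hθ, hmin, hs⟩ := exists_min_degExp hM hB
  have hd' : blockDefect p B = d := by
    have h := card_defectGroup hM hB hD
    rw [hd] at h
    exact (Nat.pow_right_injective hp.two_le h).symm
  have hea : degExp p θ ≤ a := ha ▸ degExp_le hp θ
  have hed : degExp p θ = a - d := by
    rw [← hd', blockDefect_eq hs, ha]; omega
  have hg0 : g ≠ 0 := fun h0 => (charDegree_pos θ.2).ne' (Nat.eq_zero_of_zero_dvd (h0 ▸ hg1 θ hθ))
  have hgp : g.factorization p = a - d := by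
    rw [← hed]
    refine le_antisymm ?_ ?_
    · exact (Nat.factorization_le_iff_dvd hg0 (charDegree_pos θ.2).ne').2 (hg1 θ hθ) p
    · refine (hp.pow_dvd_iff_le_factorization hg0).1 (hg2 _ fun χ hχ => ?_)
      exact (hp.pow_dvd_iff_le_factorization (charDegree_pos χ.2).ne').2 (hmin χ hχ)
  refine ⟨hgp, ?_⟩
  set u := g / p ^ (a - d) with hu
  have hgu : g = p ^ (a - d) * u := (Nat.mul_div_cancel' (hgp ▸ Nat.ordProj_dvd g p)).symm
  have hup : ¬ p ∣ u := by rw [hu, ← hgp]; exact Nat.not_dvd_ordCompl hp hg0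
  have hu0 : u ≠ 0 := fun h => hup (h ▸ dvd_zero p)
  set S := Finset.univ.filter (fun χ : IrrCharacter G => χ ∈ B) with hS
  have h1 : ¬ p ∣ orderOf (1 : G) := by rw [orderOf_one]; exact hp.not_dvd_one
  choose n hn0 hn using fun φ : IBr hM G => iBr_one_pos hM φ
  set Φ : IBr hM G → ℕ := fun φ => ∑ χ ∈ S, dec hM χ φ * charDegree (χ : G → ℂ) with hΦ
  have hIB : ∀ φ ∈ Finset.univ.filter (· ∈ IBrB hM B), g ∣ n φ ∧ p ^ a * u ∣ Φ φ ∧ 0 < Φ φ := by
    intro φ hφ
    have hφ' := (Finset.mem_filter.1 hφ).2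
    obtain ⟨m, hm⟩ := exists_int_expansion hM hB hφ'
    have e : (n φ : ℤ) = ∑ χ ∈ S, m χ * (charDegree (χ : G → ℂ) : ℤ) := by
      rw [← Int.cast_inj (α := ℂ)]
      push_cast
      rw [← hn φ, hm 1 h1]
      exact Finset.sum_congr rfl fun χ _ => by rw [apply_one (isCharacter_of_irr χ.2)]
    refine ⟨Int.natCast_dvd_natCast.1 (e ▸ Finset.dvd_sum fun χ hχ =>
      dvd_mul_of_dvd_right (Int.natCast_dvd_natCast.2 (hg1 χ (Finset.mem_filter.1 hχ).2)) _), ?_, ?_⟩
    · refine Nat.Coprime.mul_dvd_of_dvd_of_dvd ((hp.coprime_iff_not_dvd.2 hup).pow_left a) ?_ ?_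
      · have hv : ∀ y : G, p ∣ orderOf y →
            ∑ χ : IrrCharacter G, ((dec hM χ φ : ℤ) : ℂ) * (χ : G → ℂ) y = 0 := fun y hy => by
          push_cast; exact Phi_singular hM φ hy
        have h2 := pow_dvd_degree_of_vanish hp (fun χ => (dec hM χ φ : ℤ)) hv
        rw [ha] at h2
        rw [← Int.natCast_dvd_natCast]
        convert h2 using 1
        · push_cast; rfl
        rw [hΦ]
        push_cast
        refine Finset.sum_subset (Finset.subset_univ S) fun χ _ hχ => ?_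
        rw [show dec hM χ φ = 0 from by_contra fun h => hχ (Finset.mem_filter.2
          ⟨Finset.mem_univ χ, mem_of_mem_IBrB hM hB hφ' h⟩)]
        simp
      · exact Finset.dvd_sum fun χ hχ => dvd_mul_of_dvd_right
          ((Dvd.intro_left _ hgu.symm).trans (hg1 χ (Finset.mem_filter.1 hχ).2)) _
    · obtain ⟨χ, hχ, hd⟩ := hφ'
      exact lt_of_lt_of_le (Nat.mul_pos (Nat.pos_of_ne_zero hd) (charDegree_pos χ.2))
        (Finset.single_le_sum (f := fun χ : IrrCharacter G => dec hM χ φ * charDegree (χ : G → ℂ))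
          (fun _ _ => Nat.zero_le _) (Finset.mem_filter.2 ⟨Finset.mem_univ χ, hχ⟩))
  have hsum : ∑ᶠ χ ∈ B, charDegree (χ : G → ℂ) ^ 2 = ∑ φ ∈ Finset.univ.filter (· ∈ IBrB hM B), n φ * Φ φ := by
    rw [finsum_mem_eq_sum_of_subset _ (t := S) (fun χ hχ => by simp [hS, hχ.1])
      (fun χ hχ => (Finset.mem_filter.1 hχ).2), ← Nat.cast_inj (R := ℂ)]
    push_cast
    rw [Finset.sum_congr rfl (g := fun χ : IrrCharacter G =>
      ∑ φ ∈ Finset.univ.filter (· ∈ IBrB hM B), (n φ : ℂ) * ((dec hM χ φ : ℂ) * (charDegree (χ : G → ℂ) : ℂ)))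
      fun χ hχ => ?_, Finset.sum_comm]
    · refine Finset.sum_congr rfl fun φ _ => ?_
      rw [hΦ]; push_cast; rw [Finset.mul_sum]
    · have hdeg : (charDegree (χ : G → ℂ) : ℂ) = ∑ φ ∈ Finset.univ.filter (· ∈ IBrB hM B), (dec hM χ φ : ℂ) * (n φ : ℂ) := by
        rw [← apply_one (isCharacter_of_irr χ.2), apply_eq_sum_dec hM χ h1]
        refine (Finset.sum_subset (Finset.subset_univ _) fun φ _ hφ => ?_).symm.trans
          (Finset.sum_congr rfl fun φ _ => by rw [hn φ])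
        rw [dec_eq_zero_of_not_mem hM hB (Finset.mem_filter.1 hχ).2 (fun h => hφ (by simp [h])), Nat.cast_zero,
          zero_mul]
      rw [sq]
      nth_rw 1 [hdeg]
      rw [Finset.sum_mul]
      exact Finset.sum_congr rfl fun φ _ => by ring
  have hda : d ≤ a := by rw [← hd', blockDefect_eq hs, ha]; omega
  refine ⟨∑ φ ∈ Finset.univ.filter (· ∈ IBrB hM B), (n φ / g) * (Φ φ / (p ^ a * u)), ?_⟩
  have hterm : ∀ φ ∈ Finset.univ.filter (· ∈ IBrB hM B), 1 ≤ (n φ / g) * (Φ φ / (p ^ a * u)) := fun φ hφ => by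
    obtain ⟨h2, h3, h4⟩ := hIB φ hφ
    exact Nat.mul_pos (Nat.div_pos (Nat.le_of_dvd (hn0 φ) h2) (Nat.pos_of_ne_zero hg0))
      (Nat.div_pos (Nat.le_of_dvd h4 h3) (Nat.mul_pos (pow_pos hp.pos a) (Nat.pos_of_ne_zero hu0)))
  have heq : ∑ᶠ χ ∈ B, charDegree (χ : G → ℂ) ^ 2 = p ^ (2 * a - d) * u ^ 2 *
      ∑ φ ∈ Finset.univ.filter (· ∈ IBrB hM B), (n φ / g) * (Φ φ / (p ^ a * u)) := by
    rw [hsum, Finset.mul_sum]
    refine Finset.sum_congr rfl fun φ hφ => ?_
    obtain ⟨⟨r, hr⟩, ⟨t, ht⟩, -⟩ := hIB φ hφ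
    rw [hr, ht, Nat.mul_div_cancel_left _ (Nat.pos_of_ne_zero hg0),
      Nat.mul_div_cancel_left _ (Nat.mul_pos (pow_pos hp.pos a) (Nat.pos_of_ne_zero hu0)), hgu,
      show 2 * a - d = (a - d) + a by omega, pow_add]
    ring
  have hrank : blockRank p B ≤ ∑ φ ∈ Finset.univ.filter (· ∈ IBrB hM B), (n φ / g) * (Φ φ / (p ^ a * u)) := by
    rw [blockRank_eq_card hM hB, Nat.card_eq_fintype_card, Fintype.card_subtype, Finset.card_eq_sum_ones]
    exact Finset.sum_le_sum hterm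
  refine ⟨lt_of_lt_of_le (blockRank_pos hM hB) hrank, fun hdvd => ?_, hrank, heq⟩
  obtain ⟨k, hk, hk'⟩ := exists_sum_sq_degree hM hB
  rw [ha, hd'] at hk'
  rw [hk', mul_assoc] at heq
  exact hk (Nat.eq_of_mul_eq_mul_left (pow_pos hp.pos _) heq ▸ dvd_mul_of_dvd_right hdvd _)

end CfsgLib.BrauerChar
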