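import Cfsg.Agent.Blocks.BrauerChar.Decomp
import Cfsg.Agent.Blocks.Rank
import Cfsg.Agent.Blocks.PrincipalSum
import Cfsg.Agent.ZStar.PartChar

/-!
# The `p`-rational members of a block
-/

set_option autoImplicit false
set_option linter.unusedSectionVars false
set_option linter.style.haveILetI false

namespace CfsgLib.BrauerChar

open Cfsg CfsgLib CfsgLib.Blocks CfsgLib.CharBasics
open scoped ComplexConjugate

variable {p : ℕ} {M : Ideal AlgInt} (hM : IsPModular p M) {G : Type*} [Group G] [Fintype G]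

theorem comp_mem_IBr (α : G →* G) (hα : Function.Surjective α) (φ : IBr hM G) :
    (fun g => (φ : G → ℂ) (α g)) ∈ IBr hM G := by
  classical
  obtain ⟨n, ρ, hirr, hρ⟩ := φ.2
  haveI := hirr
  refine ⟨n, ρ.comp α, ?_, ?_⟩
  · haveI : Nontrivial (Subrepresentation (ρ.comp α)) := by
      haveI := nontrivial_of_irreducible hirr
      refine ⟨⟨⟨⊥, fun g v hv => by simp at hv; simp [hv]⟩, ⟨⊤, fun _ _ _ => trivial⟩, fun h => ?_⟩⟩
      exact bot_ne_top (congrArg Subrepresentation.toSubmodule h)
    refine ⟨fun S => ?_⟩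
    rcases IsSimpleOrder.eq_bot_or_eq_top (⟨S.toSubmodule, fun g v hv => by
      obtain ⟨h, rfl⟩ := hα g
      exact S.apply_mem_toSubmodule h hv⟩ : Subrepresentation ρ) with h | h
    · exact Or.inl (Subrepresentation.toSubmodule_injective (congrArg Subrepresentation.toSubmodule h :))
    · exact Or.inr (Subrepresentation.toSubmodule_injective (congrArg Subrepresentation.toSubmodule h :))
  · have hinj : Function.Injective α := Finite.injective_iff_surjective.2 hα
    funext g
    by_cases hg : p ∣ orderOf g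
    · rw [bc_singular _ hg, hρ, bc_singular _ (by rwa [orderOf_injective α hinj])]
    · rw [bc_regular _ hg, hρ, bc_regular _ (by rwa [orderOf_injective α hinj])]
      rfl

variable [Fintype (IrrCharacter G)]

include hM in
/-- The trace of an automorphism on the regular functions of a block is a natural number. -/
theorem trace_kernel_natural (α : G →* G) (hα : Function.Surjective α) {B : Set (IrrCharacter G)}
    (hB : IsPBlock M B) :
    ∃ N : ℕ, ∑ y : G, (if p ∣ orderOf y then 0 else blockKernel B (α y) y) = (Nat.card G : ℂ) * N := by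
  classical
  have hinj : Function.Injective α := Finite.injective_iff_surjective.2 hα
  refine ⟨((Finset.univ.filter (· ∈ IBrB hM B)).filter
    (fun φ : IBr hM G => (fun g => (φ : G → ℂ) (α g)) = (φ : G → ℂ))).card, ?_⟩
  rw [Finset.sum_congr rfl (g := fun y : G => ∑ φ ∈ Finset.univ.filter (· ∈ IBrB hM B),
    (φ : G → ℂ) (α y) * conj (Phi hM φ y)) fun y _ => ?_, Finset.sum_comm]
  · rw [Finset.sum_congr rfl (g := fun φ : IBr hM G =>
      if (⟨_, comp_mem_IBr hM α hα φ⟩ : IBr hM G) = φ then (Nat.card G : ℂ) else 0) fun φ _ =>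
      inner_Phi hM ⟨_, comp_mem_IBr hM α hα φ⟩ φ, ← Finset.sum_filter, Finset.sum_const, nsmul_eq_mul, mul_comm]
    congr 3
    refine Finset.filter_congr fun φ _ => ?_
    exact Subtype.ext_iff
  · split_ifs with hy
    · exact (Finset.sum_eq_zero fun φ _ => by rw [Phi_singular hM φ hy, map_zero, mul_zero]).symm
    · exact blockKernel_eq_sum_IBr hM hB (by rwa [orderOf_injective α hinj]) y

theorem sum_col_section (hM : IsPModular p M) {x : G} (hx : ∃ k : ℕ, orderOf x = p ^ k)
    [Fintype (Subgroup.centralizer ({x} : Set G))] [Fintype (IrrCharacter (Subgroup.centralizer ({x} : Set G)))]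
    {B : Set (IrrCharacter G)} (hB : IsPBlock M B) [DecidablePred (· ∈ B)]
    [DecidablePred fun b : Set (IrrCharacter (Subgroup.centralizer ({x} : Set G))) => IsInducedBlock M (Subgroup.centralizer ({x} : Set G)) b B]
    {y' y : Subgroup.centralizer ({x} : Set G)} (hy' : ¬ p ∣ orderOf y') (hy : ¬ p ∣ orderOf y) :
    ∑ χ : IrrCharacter G, (if χ ∈ B then (χ : G → ℂ) (x * y') * conj ((χ : G → ℂ) (x * y)) else 0) =
      ∑ b ∈ (blockFinset M (Subgroup.centralizer ({x} : Set G))).filter
        (fun b => IsInducedBlock M (Subgroup.centralizer ({x} : Set G)) b B), blockKernel b y' y := by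
  classical
  rw [Finset.sum_congr rfl (g := fun χ : IrrCharacter G =>
    ∑ b ∈ (blockFinset M (Subgroup.centralizer ({x} : Set G))).filter
      (fun b => IsInducedBlock M (Subgroup.centralizer ({x} : Set G)) b B),
      secVal p x b (χ : G → ℂ) y' * conj (shiftFun x (χ : G → ℂ) y)) fun χ _ => ?_, Finset.sum_comm]
  · refine Finset.sum_congr rfl fun b hb => ?_
    have hb' := mem_blockFinset.1 (Finset.mem_filter.1 hb).1
    haveI : Fintype (IrrCharacter (Subgroup.centralizer ({x} : Set G))) := @Fintype.ofFinite _ finite_irrCharacter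
    rw [Finset.sum_congr rfl (g := fun χ : IrrCharacter G =>
      ∑ z : Subgroup.centralizer ({x} : Set G), (Nat.card (Subgroup.centralizer ({x} : Set G)) : ℂ)⁻¹ *
        ((if p ∣ orderOf z then 0 else shiftFun x (χ : G → ℂ) z * conj (shiftFun x (χ : G → ℂ) y)) *
          blockKernel b y' z)) fun χ _ => by
        rw [secVal_eq_kernel hM hb' _ hy', mul_assoc, Finset.sum_mul, Finset.mul_sum]
        exact Finset.sum_congr rfl fun z _ => by split_ifs <;> ring,
      Finset.sum_comm]
    have hcls : IsClassFunction (Subgroup.centralizer ({x} : Set G)) (fun z => blockKernel b y' z) := fun z d => by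
      show blockKernel b y' (d * z * d⁻¹) = blockKernel b y' z
      rw [blockKernel_eq, blockKernel_eq]
      exact Finset.sum_congr rfl fun ξ _ => by rw [isClassFunction (isCharacter_of_irr ξ.2) z d]
    rw [Finset.sum_congr rfl (g := fun z : Subgroup.centralizer ({x} : Set G) =>
      (Nat.card (Subgroup.centralizer ({x} : Set G)) : ℂ)⁻¹ * (if IsConj y z then
        (Nat.card (Subgroup.centralizer ({y} : Set (Subgroup.centralizer ({x} : Set G)))) : ℂ) * blockKernel b y' z
        else 0)) fun z _ => ?_, ← Finset.mul_sum, sum_class_mul hcls y, inv_mul_cancel_left₀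
      (Nat.cast_ne_zero.2 Nat.card_pos.ne')]
    rw [← Finset.mul_sum, ← Finset.sum_mul]
    congr 1
    by_cases hz : p ∣ orderOf z
    · have hne : ¬ IsConj y z := fun hc => by
        obtain ⟨c, rfl⟩ := isConj_iff.1 hc
        exact hy (by rwa [show orderOf (c * y * c⁻¹) = orderOf y from
          orderOf_injective (MulAut.conj c).toMonoidHom (MulAut.conj c).injective y] at hz)
      rw [if_neg hne]
      simp [hz]
    · simp only [hz, if_false]
      rw [sum_shift_col hx hM.1 hz hy]
      by_cases hc : IsConj y z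
      · rw [if_pos hc, if_pos hc.symm]
        congr 1
        obtain ⟨c, rfl⟩ := isConj_iff.1 hc
        rw [Nat.cast_inj]
        apply Nat.eq_of_mul_eq_mul_right (Nat.pos_of_ne_zero
          (Subgroup.index_ne_zero_of_finite (H := Subgroup.centralizer ({y} : Set (Subgroup.centralizer ({x} : Set G))))))
        rw [Subgroup.card_mul_index, ← card_conjClass, Nat.card_congr (Equiv.subtypeEquivRight fun w =>
          show IsConj y w ↔ IsConj (c * y * c⁻¹) w from ⟨hc.symm.trans, hc.trans⟩), card_conjClass,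
          Subgroup.card_mul_index]
      · rw [if_neg hc, if_neg fun h : IsConj z y => hc h.symm, zero_mul]
  · rw [← Finset.sum_mul, apply_eq_sum_secVal hM hx hB χ hy', shiftFun]
    split_ifs <;> simp

omit [Fintype (IrrCharacter G)] in
/-- A generator of the automorphisms fixing the roots of unity of order prime to `p`. -/
theorem exists_generator (hp : p.Prime) (hodd : p ≠ 2) {n : ℕ} (hn : n ≠ 0) :
    ∃ k₀ : ℕ, k₀.Coprime n ∧ k₀ ≡ 1 [MOD n / p ^ n.factorization p] ∧
      ∀ k : ℕ, k.Coprime n → k ≡ 1 [MOD n / p ^ n.factorization p] → ∃ j : ℕ, k ≡ k₀ ^ j [MOD n] := by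
  haveI := Fact.mk hp
  set a := n.factorization p with ha
  set m := n / p ^ a with hm
  have hmul : p ^ a * m = n := Nat.mul_div_cancel' (Nat.ordProj_dvd _ _)
  have hcop : (p ^ a).Coprime m := ((hp.coprime_iff_not_dvd.2 (Nat.not_dvd_ordCompl hp hn)).pow_left a)
  haveI := ZMod.isCyclic_units_of_prime_pow p hp hodd a
  haveI : NeZero (p ^ a) := ⟨pow_ne_zero _ hp.ne_zero⟩
  obtain ⟨g, hg⟩ := IsCyclic.exists_monoid_generator (α := (ZMod (p ^ a))ˣ)
  obtain ⟨k₀, hk1, hk2⟩ := Nat.chineseRemainder hcop (g : ZMod (p ^ a)).val 1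
  have hk₀ : ((k₀ : ℕ) : ZMod (p ^ a)) = g := by
    rw [(ZMod.natCast_eq_natCast_iff _ _ _).2 hk1, ZMod.natCast_zmod_val]
  refine ⟨k₀, ?_, hk2, fun k hk hk' => ?_⟩
  · rw [← hmul]
    refine Nat.Coprime.mul_right ?_ ?_
    · exact (ZMod.isUnit_iff_coprime _ _).1 (hk₀ ▸ g.isUnit)
    · have := hk2.gcd_eq
      rwa [Nat.gcd_one_left] at this
  · obtain ⟨j, hj⟩ := Submonoid.mem_powers_iff _ _ |>.1
      (hg (ZMod.unitOfCoprime k (hk.coprime_dvd_right ⟨m, hmul.symm⟩)))
    refine ⟨j, ?_⟩
    rw [← hmul]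
    refine (Nat.modEq_and_modEq_iff_modEq_mul hcop).1 ⟨?_, ?_⟩
    · rw [← ZMod.natCast_eq_natCast_iff]
      have := congrArg Units.val hj
      rw [Units.val_pow_eq_pow_val, ZMod.coe_unitOfCoprime] at this
      rw [Nat.cast_pow, hk₀, this]
    · refine hk'.trans ?_
      simpa using (hk2.pow j).symm

omit [Fintype (IrrCharacter G)] in
theorem pow_eq_self_regular (hp : p.Prime) {k : ℕ} (hk : k ≡ 1 [MOD Nat.card G / p ^ (Nat.card G).factorization p])
    {g : G} (hg : ¬ p ∣ orderOf g) : g ^ k = g := by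
  have hdvd : orderOf g ∣ Nat.card G / p ^ (Nat.card G).factorization p := by
    refine Nat.Coprime.dvd_of_dvd_mul_left ((hp.coprime_iff_not_dvd.2 hg).symm.pow_right ((Nat.card G).factorization p)) ?_
    rw [Nat.ordProj_mul_ordCompl_eq_self]
    exact orderOf_dvd_natCard g
  conv_rhs => rw [← pow_one g]
  exact pow_eq_pow_iff_modEq.2 (hk.of_dvd hdvd)

include hM in
theorem powChar_mem_block {k : ℕ} (hk : k.Coprime (Nat.card G))
    (hk1 : k ≡ 1 [MOD Nat.card G / p ^ (Nat.card G).factorization p]) {B : Set (IrrCharacter G)} (hB : IsPBlock M B)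
    {χ : IrrCharacter G} (hχ : χ ∈ B) : powChar hk χ ∈ B := by
  classical
  have hdec : ∀ φ : IBr hM G, (dec hM (powChar hk χ) φ : ℂ) - (dec hM χ φ : ℂ) = 0 := coeff_eq_zero hM fun g => by
    by_cases hg : p ∣ orderOf g
    · exact Finset.sum_eq_zero fun φ _ => by rw [iBr_singular hM φ hg, mul_zero]
    · rw [Finset.sum_congr rfl fun φ _ => sub_mul _ _ _, Finset.sum_sub_distrib, ← apply_eq_sum_dec hM _ hg,
        ← apply_eq_sum_dec hM _ hg, powChar_apply, pow_eq_self_regular hM.1 hk1 hg, sub_self]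
  have h1 : ¬ p ∣ orderOf (1 : G) := by rw [orderOf_one]; exact hM.1.not_dvd_one
  obtain ⟨φ, hφ⟩ : ∃ φ : IBr hM G, dec hM χ φ ≠ 0 := by
    by_contra h
    push Not at h
    refine apply_one_ne_zero χ.2 ?_
    rw [apply_eq_sum_dec hM χ h1]
    simp [h]
  have hφ' : dec hM (powChar hk χ) φ ≠ 0 := by
    rwa [Nat.cast_inj.1 (sub_eq_zero.1 (hdec φ))]
  exact (mem_iff_of_dec hM hB hφ hφ').1 hχ

include hM in
theorem blockRank_le_fixed {k₀ : ℕ} (hk₀ : k₀.Coprime (Nat.card G))
    (hk1 : k₀ ≡ 1 [MOD Nat.card G / p ^ (Nat.card G).factorization p]) {B : Set (IrrCharacter G)} (hB : IsPBlock M B) :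
    blockRank p B ≤ Nat.card {χ : IrrCharacter G // χ ∈ B ∧ ∀ g : G, (χ : G → ℂ) (g ^ k₀) = (χ : G → ℂ) g} := by
  classical
  haveI : Fact p.Prime := ⟨hM.1⟩
  haveI : ∀ K : Subgroup G, Fintype K := fun K => Fintype.ofFinite K
  haveI : ∀ K : Subgroup G, Fintype (IrrCharacter K) := fun K => @Fintype.ofFinite _ finite_irrCharacter
  set F : G → ℂ := fun g => ∑ χ : IrrCharacter G, if χ ∈ B then (χ : G → ℂ) (g ^ k₀) * conj ((χ : G → ℂ) g) else 0
    with hF
  have hcnt : (Nat.card {χ : IrrCharacter G // χ ∈ B ∧ ∀ g : G, (χ : G → ℂ) (g ^ k₀) = (χ : G → ℂ) g} : ℂ) *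
      (Nat.card G : ℂ) = ∑ g : G, F g := by
    rw [hF, Finset.sum_comm, Nat.card_eq_fintype_card, Fintype.card_subtype, Finset.card_filter, Nat.cast_sum,
      Finset.sum_mul]
    refine Finset.sum_congr rfl fun χ _ => ?_
    by_cases hχ : χ ∈ B
    swap
    · simp [hχ]
    simp only [hχ, true_and, if_true]
    have h : ∑ g : G, (χ : G → ℂ) (g ^ k₀) * conj ((χ : G → ℂ) g) =
        (Nat.card G : ℂ) * classInner (powChar hk₀ χ : G → ℂ) (χ : G → ℂ) := by
      rw [classInner_eq, mul_inv_cancel_left₀ (Nat.cast_ne_zero.2 Nat.card_pos.ne')]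
      exact Finset.sum_congr rfl fun g _ => by rw [powChar_apply]
    rw [h]
    split_ifs with hfix
    · rw [show (powChar hk₀ χ : G → ℂ) = (χ : G → ℂ) from funext fun g => (powChar_apply hk₀ χ g).trans (hfix g),
        classInner_self χ.2]
      push_cast; ring
    · rw [classInner_ne (powChar hk₀ χ).2 χ.2 (fun h => hfix fun g => (powChar_apply hk₀ χ g).symm.trans
        (congrFun h g))]
      push_cast; ring
  have hpp : ∀ g : G, IsPPart p g (ZStar.ppart p g) := fun g => by
    obtain ⟨y, h1, h2, h3, h4, -, -⟩ := (ZStar.exists_pPart_finite (p := p) g).choose_spec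
    exact ⟨y, h1, h2, h3, h4⟩
  have hFcl : IsClassFunction G F := fun g d => by
    simp only [hF]
    refine Finset.sum_congr rfl fun χ _ => ?_
    rw [conj_pow, isClassFunction (isCharacter_of_irr χ.2) (g ^ k₀) d, isClassFunction (isCharacter_of_irr χ.2) g d]
  have hsec : ∀ c : ConjClasses G, ∃ N : ℕ, (∑ g ∈ Finset.univ.filter (fun g => ConjClasses.mk (ZStar.ppart p g) = c),
      F g = (Nat.card G : ℂ) * N) ∧ (c = ConjClasses.mk 1 → N = blockRank p B) := by
    intro c
    by_cases hex : ∃ g : G, ConjClasses.mk (ZStar.ppart p g) = c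
    swap
    · refine ⟨0, ?_, fun h => absurd ?_ hex⟩
      · rw [Finset.filter_false_of_mem fun g _ h => hex ⟨g, h⟩]; simp
      · obtain ⟨y, h1, -, ⟨k, hk⟩, hy⟩ := hpp 1
        refine ⟨1, ?_⟩
        rw [h, show ZStar.ppart p (1 : G) = 1 from ?_]
        exact (isPPart_unique hM.1 (hpp 1) ⟨1, by simp, Commute.refl 1, ⟨0, by simp⟩, by
          rw [orderOf_one]; exact hM.1.not_dvd_one⟩)
    obtain ⟨g₁, hg₁⟩ := hex
    set x := ZStar.ppart p g₁ with hxdef
    obtain ⟨-, -, -, hx, -⟩ := hpp g₁
    rw [← hxdef] at hx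
    rw [Finset.sum_filter, ← hg₁]
    simp only [ConjClasses.mk_eq_mk_iff_isConj]
    have hsum := sum_section hM.1 hFcl hx (fun g => ZStar.ppart p g) hpp
    rw [show (∑ g : G, if IsConj (ZStar.ppart p g) x then F g else 0) =
      ∑ g : G, if IsConj x (ZStar.ppart p g) then F g else 0 from Finset.sum_congr rfl fun g _ =>
        if_congr ⟨IsConj.symm, IsConj.symm⟩ rfl rfl]
    have hC : (Nat.card (Subgroup.centralizer ({x} : Set G)) : ℂ) ≠ 0 := Nat.cast_ne_zero.2 Nat.card_pos.ne'
    -- the value of a section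
    have hT : ∃ N : ℕ, (∑ y : Subgroup.centralizer ({x} : Set G), (if p ∣ orderOf y then 0 else F (x * y)) =
        (Nat.card (Subgroup.centralizer ({x} : Set G)) : ℂ) * N) ∧ (x = 1 → N = blockRank p B) := by
      have hyk : ∀ y : Subgroup.centralizer ({x} : Set G), ¬ p ∣ orderOf y →
          (x * (y : G)) ^ k₀ = x ^ k₀ * (y : G) := fun y hy => by
        rw [Commute.mul_pow (Subgroup.mem_centralizer_singleton_iff.1 y.2).symm,
          pow_eq_self_regular hM.1 hk1 (g := (y : G)) (by rwa [Subgroup.orderOf_coe])]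
      by_cases hx1 : x = 1
      · refine ⟨blockRank p B, ?_, fun _ => rfl⟩
        let e : Subgroup.centralizer ({x} : Set G) ≃ G :=
          Equiv.ofBijective (fun y => (y : G)) ⟨Subtype.val_injective, fun g =>
            ⟨⟨g, by rw [Subgroup.mem_centralizer_singleton_iff, hx1, one_mul, mul_one]⟩, rfl⟩⟩
        rw [Nat.card_congr e, ← sum_blockKernel_diag hM hB]
        refine Fintype.sum_equiv e _ _ fun y => ?_
        show _ = if p ∣ orderOf (y : G) then 0 else blockKernel B (y : G) (y : G)
        rw [Subgroup.orderOf_coe]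
        split_ifs with hy
        · rfl
        · simp only [hF, hx1, one_mul, pow_eq_self_regular hM.1 hk1 (g := (y : G)) (by rwa [Subgroup.orderOf_coe])]
          rw [blockKernel_eq, ← Finset.sum_filter]
      by_cases hconj : IsConj x (x ^ k₀)
      swap
      · refine ⟨0, ?_, fun h => absurd h hx1⟩
        rw [Nat.cast_zero, mul_zero]
        refine Finset.sum_eq_zero fun y _ => ?_
        split_ifs with hy
        · rfl
        obtain ⟨a, ha⟩ := hx
        have hcom : Commute x (y : G) := (Subgroup.mem_centralizer_singleton_iff.1 y.2).symm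
        have h1 : IsPPart p (x * (y : G)) x := ⟨y, rfl, hcom, ⟨a, ha⟩, by rwa [Subgroup.orderOf_coe]⟩
        have h2 : IsPPart p ((x * (y : G)) ^ k₀) (x ^ k₀) := ⟨y, (hyk y hy).symm, hcom.pow_left k₀,
          ⟨a, by rw [Nat.Coprime.orderOf_pow (Nat.Coprime.coprime_dvd_left (orderOf_dvd_natCard x) hk₀.symm), ha]⟩,
          by rwa [Subgroup.orderOf_coe]⟩
        have h := block_orth_of_not_isConj hM hB h2 h1 (fun h => hconj h.symm)
        rw [finsum_mem_eq_sum_of_subset _ (t := Finset.univ.filter (· ∈ B)) (fun χ hχ => by simp [hχ.1])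
          (fun χ hχ => (Finset.mem_filter.1 hχ).2), Finset.sum_filter] at h
        exact h
      obtain ⟨d, hd⟩ := isConj_iff.1 hconj
      let α : Subgroup.centralizer ({x} : Set G) →* Subgroup.centralizer ({x} : Set G) :=
        MonoidHom.mk' (fun y => ⟨d⁻¹ * (y : G) * d, by
          have hc : Commute (x ^ k₀) (y : G) :=
            Commute.pow_left (Subgroup.mem_centralizer_singleton_iff.1 y.2).symm k₀
          rw [← hd] at hc
          rw [Subgroup.mem_centralizer_singleton_iff]
          calc d⁻¹ * (y : G) * d * x = d⁻¹ * ((y : G) * (d * x * d⁻¹)) * d := by group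
            _ = d⁻¹ * ((d * x * d⁻¹) * (y : G)) * d := by rw [hc.eq]
            _ = x * (d⁻¹ * (y : G) * d) := by group⟩)
          fun y z => Subtype.ext (by push_cast; group)
      have hαinj : Function.Injective α := fun y z h => Subtype.ext (by
        have := congrArg Subtype.val h
        simpa [α] using this)
      have hNb : ∀ b : (blockFinset M (Subgroup.centralizer ({x} : Set G))).filter
          (fun b => IsInducedBlock M (Subgroup.centralizer ({x} : Set G)) b B), ∃ N : ℕ,
          ∑ y : Subgroup.centralizer ({x} : Set G), (if p ∣ orderOf y then 0 else blockKernel (b : Set _) (α y) y) =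
          (Nat.card (Subgroup.centralizer ({x} : Set G)) : ℂ) * N := fun b =>
        trace_kernel_natural hM α (Finite.injective_iff_surjective.1 hαinj)
          (mem_blockFinset.1 (Finset.mem_filter.1 b.2).1)
      choose N hN using hNb
      refine ⟨∑ b, N b, ?_, fun h => absurd h hx1⟩
      push_cast
      rw [Finset.mul_sum, ← Finset.sum_congr rfl fun b _ => hN b, Finset.sum_comm]
      refine Finset.sum_congr rfl fun y _ => ?_
      by_cases hy : p ∣ orderOf y
      · simp [hy]
      simp only [hy, if_false]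
      rw [Finset.sum_coe_sort _ (fun b => blockKernel b (α y) y), ← sum_col_section hM hx hB
        (by rwa [orderOf_injective α hαinj]) hy]
      simp only [hF]
      refine Finset.sum_congr rfl fun χ _ => ?_
      rw [hyk y hy]
      split_ifs
      · congr 1
        rw [← hd, ← isClassFunction (isCharacter_of_irr χ.2) (x * ((α y : Subgroup.centralizer ({x} : Set G)) : G)) d]
        refine congrArg _ ?_
        show d * x * d⁻¹ * (y : G) = d * (x * (d⁻¹ * (y : G) * d)) * d⁻¹
        group
      · rfl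
    obtain ⟨N, hN, hN1⟩ := hT
    refine ⟨N, ?_, fun h => hN1 ?_⟩
    · rw [hN] at hsum
      apply mul_left_cancel₀ hC
      rw [hsum]; ring
    · exact isConj_one_right.1 h.symm
  choose N hN hN1 using hsec
  have htot : (Nat.card {χ : IrrCharacter G // χ ∈ B ∧ ∀ g : G, (χ : G → ℂ) (g ^ k₀) = (χ : G → ℂ) g} : ℂ) =
      ((∑ c : ConjClasses G, N c : ℕ) : ℂ) := by
    apply mul_right_cancel₀ (Nat.cast_ne_zero.2 Nat.card_pos.ne' : (Nat.card G : ℂ) ≠ 0)
    rw [hcnt, ← Finset.sum_fiberwise Finset.univ (fun g => ConjClasses.mk (ZStar.ppart p g)) F,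
      Finset.sum_congr rfl fun c _ => hN c, ← Finset.mul_sum, Nat.cast_sum, mul_comm]
  rw [Nat.cast_inj] at htot
  rw [htot, ← hN1 (ConjClasses.mk 1) rfl]
  exact Finset.single_le_sum (fun c _ => Nat.zero_le _) (Finset.mem_univ _)

include hM in
theorem blockRank_le_pRational (hodd : p ≠ 2) {B : Set (IrrCharacter G)} (hB : IsPBlock M B) :
    blockRank p B ≤ Nat.card {χ : IrrCharacter G // χ ∈ B ∧ ∀ k : ℕ, Nat.Coprime k (Nat.card G) →
      k ≡ 1 [MOD Nat.card G / p ^ (Nat.card G).factorization p] → ∀ g : G, (χ : G → ℂ) (g ^ k) = (χ : G → ℂ) g} := by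
  obtain ⟨k₀, hk₀, hk1, hgen⟩ := exists_generator hM.1 hodd (Nat.card_pos (α := G)).ne'
  refine (blockRank_le_fixed hM hk₀ hk1 hB).trans_eq (Nat.card_congr (Equiv.subtypeEquivRight fun χ => ?_))
  refine and_congr_right fun _ => ⟨fun h k hk hk' g => ?_, fun h g => h k₀ hk₀ hk1 g⟩
  obtain ⟨j, hj⟩ := hgen k hk hk'
  rw [show g ^ k = g ^ k₀ ^ j from pow_eq_pow_iff_modEq.2 (hj.of_dvd (orderOf_dvd_natCard g))]
  clear hj
  induction j generalizing g with
  | zero => simp
  | succ j ih => rw [pow_succ, pow_mul, h, ih]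

end CfsgLib.BrauerChar
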