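import Cfsg.Agent.Blocks.BrauerChar.Basic
import Cfsg.Agent.ZStar.Congr

/-!
# Linear independence of the irreducible Brauer characters
-/

set_option autoImplicit false
set_option linter.unusedSectionVars false
set_option linter.style.haveILetI false

namespace CfsgLib.BrauerChar

open Cfsg CfsgLib CfsgLib.Blocks Module
open scoped MonoidAlgebra

variable {p : ℕ} {M : Ideal AlgInt} {hM : IsPModular p M} {G : Type*} [Group G] [Fintype G]

theorem trace_mul_pPower {V : Type*} [AddCommGroup V] [Module (RF hM) V] [Module.Finite (RF hM) V]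
    (ρ : Representation (RF hM) G V) {x y : G} (hc : Commute x y) {k : ℕ} (hx : orderOf x = p ^ k) :
    LinearMap.trace (RF hM) V (ρ (x * y)) = LinearMap.trace (RF hM) V (ρ y) := by
  haveI := Fact.mk hM.1
  have hN : IsNilpotent (ρ x - 1) := by
    refine ⟨p ^ k, ?_⟩
    have h := congrArg (Polynomial.aeval (ρ x))
      (sub_pow_char_pow (R := Polynomial (RF hM)) (p := p) Polynomial.X 1 k)
    simp only [map_pow, map_sub, Polynomial.aeval_X, map_one, one_pow] at h
    rw [h, ← map_pow, ← hx, pow_orderOf_eq_one, map_one, sub_self]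
  have hcm : Commute (ρ x - 1) (ρ y) := ((hc.map ρ).sub_left (Commute.one_left _))
  have h0 := (LinearMap.isNilpotent_trace_of_isNilpotent (hcm.isNilpotent_mul_right hN)).eq_zero
  rw [sub_mul, one_mul, map_sub, ← map_mul, sub_eq_zero] at h0
  exact h0

theorem trace_indep {ι : Type*} [Fintype ι] (n : ι → ℕ) (ρ : ∀ i, Representation (RF hM) G (Fin (n i) → RF hM))
    (hirr : ∀ i, (ρ i).IsIrreducible)
    (hne : ∀ i j (e : (Fin (n i) → RF hM) ≃ₗ[RF hM] (Fin (n j) → RF hM)), (∀ g, ρ j g = e.conj (ρ i g)) → i = j)
    (c : ι → RF hM)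
    (h : ∀ g : G, ¬ p ∣ orderOf g → ∑ i, c i * LinearMap.trace (RF hM) _ (ρ i g) = 0) : c = 0 := by
  classical
  haveI := Fact.mk hM.1
  haveI := hirr
  have hall : ∀ g : G, ∑ i, c i * LinearMap.trace (RF hM) _ (ρ i g) = 0 := fun g => by
    obtain ⟨x, y, hxy, hcom, ⟨k, hk⟩, hy, -, -⟩ := ZStar.exists_pPart (p := p) hM.1 g
    rw [← h y hy]
    exact Finset.sum_congr rfl fun i _ => by rw [← hxy, trace_mul_pPower (ρ i) hcom hk]
  let Λ : (RF hM)[G] →ₗ[RF hM] RF hM :=
    ∑ i, c i • (LinearMap.trace (RF hM) _).comp (ρ i).asAlgebraHom.toLinearMap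
  have hΛ : ∀ r, ∑ i, c i * LinearMap.trace (RF hM) _ ((ρ i).asAlgebraHom r) = 0 := by
    intro r
    induction r using MonoidAlgebra.induction_on with
    | of g => simpa using hall g
    | add a b ha hb => simp [mul_add, Finset.sum_add_distrib, ha, hb]
    | smul a b hb => simp [mul_left_comm, ← Finset.mul_sum, hb]
  funext j
  let N : ι → Type := fun i => (ρ i).asModule
  letI : ∀ i, AddCommGroup (N i) := fun i => inferInstanceAs (AddCommGroup (ρ i).asModule)
  letI : ∀ i, Module (RF hM)[G] (N i) := fun i => inferInstanceAs (Module (RF hM)[G] (ρ i).asModule)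
  haveI : ∀ i, IsSimpleModule (RF hM)[G] (N i) := fun i => (Representation.irreducible_iff_isSimpleModule_asModule (ρ i)).1 (hirr i)
  haveI : Nontrivial (Fin (n j) → RF hM) := by
    haveI : IsSimpleModule (RF hM)[G] (ρ j).asModule := (Representation.irreducible_iff_isSimpleModule_asModule (ρ j)).1 (hirr j)
    haveI := IsSimpleModule.nontrivial (RF hM)[G] (ρ j).asModule
    exact (ρ j).asModuleEquiv.symm.toEquiv.nontrivial
  obtain ⟨i₀⟩ : Nonempty (Fin (n j)) := by
    by_contra hE
    rw [not_nonempty_iff] at hE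
    exact not_subsingleton (Fin (n j) → RF hM) inferInstance
  let E : (Fin (n j) → RF hM) →ₗ[RF hM] (Fin (n j) → RF hM) :=
    (LinearMap.proj i₀).smulRight (Pi.single i₀ (1 : RF hM))
  have hEtr : LinearMap.trace (RF hM) _ E = 1 := by simp [E]
  have hoff : ∀ (φ : Module.End (RF hM)[G] (Π i, N i)) (l : ι), l ≠ j → ∀ v : N l, φ (Pi.single l v) j = 0 := by
    intro φ l hl v
    let f : (ρ l).asModule →ₗ[(RF hM)[G]] (ρ j).asModule :=
      ((LinearMap.proj j : (Π i, N i) →ₗ[(RF hM)[G]] N j).comp (φ.comp (LinearMap.single (RF hM)[G] N l)))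
    rcases LinearMap.bijective_or_eq_zero f with hb | h0
    · exfalso
      let e : (Fin (n l) → RF hM) ≃ₗ[RF hM] (Fin (n j) → RF hM) :=
        (ρ l).asModuleEquiv.symm.trans
          (((LinearEquiv.ofBijective f hb).restrictScalars (RF hM)).trans (ρ j).asModuleEquiv)
      refine hl (hne l j e fun g => ?_)
      refine LinearMap.ext fun w => ?_
      rw [LinearEquiv.conj_apply_apply]
      show _ = (ρ j).asModuleEquiv (f ((ρ l).asModuleEquiv.symm (ρ l g (e.symm w))))
      rw [Representation.asModuleEquiv_symm_map_rho, map_smul, Representation.asModuleEquiv_map_smul]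
      conv_lhs => rw [← e.apply_symm_apply w]
      simp only [MonoidAlgebra.of_apply, Representation.asAlgebraHom_single, one_smul]
      rfl
    · exact congrFun (congrArg DFunLike.coe h0) v
  have hdiag : ∀ φ : Module.End (RF hM)[G] (Π i, N i), ∃ a : RF hM, ∀ m : Π i, N i,
      (ρ j).asModuleEquiv (φ m j) = a • (ρ j).asModuleEquiv (m j) := by
    intro φ
    let f : Module.End (RF hM)[G] (ρ j).asModule :=
      ((LinearMap.proj j : (Π i, N i) →ₗ[(RF hM)[G]] N j).comp (φ.comp (LinearMap.single (RF hM)[G] N j)))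
    obtain ⟨a, ha⟩ := (IsSimpleModule.algebraMap_end_bijective_of_isAlgClosed (RF hM)
      (A := (RF hM)[G]) (V := (ρ j).asModule)).2 f
    refine ⟨a, fun m => ?_⟩
    have hm : φ m j = f (m j) := by
      conv_lhs => rw [← Finset.univ_sum_single m, map_sum, Finset.sum_apply]
      rw [Finset.sum_eq_single j (fun l _ hl => hoff φ l hl _) (fun h => absurd (Finset.mem_univ j) h)]
      rfl
    rw [hm, ← ha, Module.algebraMap_end_apply, map_smul]
  let F : Module.End (Module.End (RF hM)[G] (Π i, N i)) (Π i, N i) :=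
    { toFun := fun m => Pi.single j ((ρ j).asModuleEquiv.symm (E ((ρ j).asModuleEquiv (m j))))
      map_add' := fun a b => by simp [Pi.single_add]
      map_smul' := fun φ m => by
        funext l
        obtain ⟨a, ha⟩ := hdiag φ
        rcases eq_or_ne l j with rfl | hl
        · apply (ρ l).asModuleEquiv.injective
          simp only [Module.End.smul_def, RingHom.id_apply, ha, Pi.single_eq_same, LinearEquiv.apply_symm_apply,
            map_smul]
        · simp only [Module.End.smul_def, RingHom.id_apply]
          rw [Pi.single_eq_of_ne hl]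
          let g : (ρ j).asModule →ₗ[(RF hM)[G]] (ρ l).asModule :=
            ((LinearMap.proj l : (Π i, N i) →ₗ[(RF hM)[G]] N l).comp (φ.comp (LinearMap.single (RF hM)[G] N j)))
          rcases LinearMap.bijective_or_eq_zero g with hb | h0
          · exfalso
            let e : (Fin (n j) → RF hM) ≃ₗ[RF hM] (Fin (n l) → RF hM) :=
              (ρ j).asModuleEquiv.symm.trans
                (((LinearEquiv.ofBijective g hb).restrictScalars (RF hM)).trans (ρ l).asModuleEquiv)
            refine hl (hne j l e fun x => ?_).symm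
            refine LinearMap.ext fun w => ?_
            rw [LinearEquiv.conj_apply_apply]
            show _ = (ρ l).asModuleEquiv (g ((ρ j).asModuleEquiv.symm (ρ j x (e.symm w))))
            rw [Representation.asModuleEquiv_symm_map_rho, map_smul, Representation.asModuleEquiv_map_smul]
            conv_lhs => rw [← e.apply_symm_apply w]
            simp only [MonoidAlgebra.of_apply, Representation.asAlgebraHom_single, one_smul]
            rfl
          · exact (congrFun (congrArg DFunLike.coe h0) _).symm }
  let s : Finset (Π i, N i) := Finset.univ.image fun q : Σ i, Fin (n i) =>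
    Pi.single q.1 ((ρ q.1).asModuleEquiv.symm (Pi.single q.2 (1 : RF hM)))
  obtain ⟨r, hr⟩ := jacobson_density F s
  have hval : ∀ i, (ρ i).asAlgebraHom r = if hi : i = j then hi ▸ E else 0 := by
    intro i
    refine (Pi.basisFun (RF hM) (Fin (n i))).ext fun t => ?_
    have h1 := hr (Pi.single i ((ρ i).asModuleEquiv.symm (Pi.single t (1 : RF hM))))
      (Finset.mem_image.2 ⟨⟨i, t⟩, Finset.mem_univ _, rfl⟩)
    have h2 := congrArg (ρ i).asModuleEquiv (congrFun h1 i)
    rw [Pi.smul_apply, Pi.single_eq_same, Representation.asModuleEquiv_map_smul,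
      LinearEquiv.apply_symm_apply] at h2
    rw [Pi.basisFun_apply, ← h2]
    by_cases hi : i = j
    · subst hi
      simp [F]
    · simp [F, hi, Pi.single_eq_of_ne hi]
  have h3 := hΛ r
  rw [Finset.sum_eq_single j (fun i _ hi => by rw [hval i, dif_neg hi, map_zero, mul_zero])
    (fun h => absurd (Finset.mem_univ j) h), hval j, dif_pos rfl] at h3
  simpa [hEtr] using h3

theorem linearIndependent_IBr : LinearIndependent ℂ (Subtype.val : IBr hM G → G → ℂ) := by
  classical
  rw [linearIndependent_iff']
  intro s a ha i hi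
  have hrep : ∀ q : s, ∃ (n : ℕ) (ρ : Representation (RF hM) G (Fin n → RF hM)),
      ρ.IsIrreducible ∧ (q.1 : G → ℂ) = bc hM ρ := fun q => q.1.2
  choose n ρ hirr hbc using hrep
  let t : s → G → RF hM := fun q g => if p ∣ orderOf g then 0 else LinearMap.trace (RF hM) _ (ρ q g)
  have ht : LinearMap.ker (Fintype.linearCombination (RF hM) t) = ⊥ := by
    refine (Submodule.eq_bot_iff _).2 fun c hc => ?_
    refine trace_indep n ρ hirr (fun q q' e h => Subtype.ext (Subtype.ext ((hbc q).trans ((bc_equiv (ρ q) (ρ q') e h).symm.trans (hbc q').symm)))) c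
      fun g hg => ?_
    have := congrFun (LinearMap.mem_ker.1 hc) g
    simpa [Fintype.linearCombination_apply, t, hg] using this
  obtain ⟨L, hL⟩ := (Fintype.linearCombination (RF hM) t).exists_leftInverse_of_injective ht
  choose l hl using fun (q : s) (g : G) => IsLocalRing.residue_surjective (L (Pi.single g 1) q)
  let b : s → G → plc hM := fun q g => ⟨bc hM (ρ q) g, mem_plc_of_isIntegral hM (isIntegral_bc (ρ q) g)⟩
  have hb : ∀ q g, res hM (b q g) = t q g := fun q g => by
    by_cases hg : p ∣ orderOf g
    · simp only [t, hg, if_true]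
      rw [← map_zero (res hM)]
      exact congrArg _ (Subtype.ext (bc_singular (ρ q) hg))
    · simp only [t, hg, if_false]
      exact res_bc (ρ q) hg
  let N : Matrix s s (plc hM) := Matrix.of fun q q' => ∑ g, l q g * b q' g
  have hN : (res hM).mapMatrix N = 1 := by
    ext q q'
    have h1 : L (t q') q = (1 : Matrix s s (RF hM)) q q' := by
      have h2 := congrFun (LinearMap.congr_fun hL (Pi.single q' 1)) q
      rw [LinearMap.comp_apply, LinearMap.id_apply, Fintype.linearCombination_apply,
        Finset.sum_eq_single q' (fun x _ hx => by simp [hx]) (fun h => absurd (Finset.mem_univ q') h)] at h2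
      rw [Pi.single_eq_same, one_smul] at h2
      rw [h2, Matrix.one_apply, Pi.single_apply]
    rw [← h1, RingHom.mapMatrix_apply, Matrix.map_apply]
    show res hM (∑ g, l q g * b q' g) = _
    rw [map_sum]
    conv_rhs => rw [pi_eq_sum_univ' (t q'), map_sum, Finset.sum_apply]
    refine Finset.sum_congr rfl fun g _ => ?_
    rw [map_mul, hl, hb, map_smul, Pi.smul_apply, smul_eq_mul, mul_comm]
  have hdet : N.det ≠ 0 := fun h => by
    have := congrArg (res hM) h
    rw [RingHom.map_det, hN, Matrix.det_one, map_zero] at this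
    exact one_ne_zero this
  have h0 := Matrix.eq_zero_of_mulVec_eq_zero (M := (plc hM).subtype.mapMatrix N) (v := fun q : s => a q.1)
    (by rw [← RingHom.map_det]; simpa using hdet) ?_
  · exact congrFun h0 ⟨i, hi⟩
  · funext q
    simp only [Matrix.mulVec, dotProduct, RingHom.mapMatrix_apply, Matrix.map_apply, Pi.zero_apply]
    rw [Finset.sum_congr rfl (g := fun q' : s => ∑ g, (l q g : ℂ) * (a q'.1 * (q'.1 : G → ℂ) g)) fun q' _ => by
      rw [show ((plc hM).subtype (N q q')) = ∑ g, (l q g : ℂ) * (b q' g : ℂ) by simp [N], Finset.sum_mul]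
      exact Finset.sum_congr rfl fun g _ => by rw [hbc q']; show _ * bc hM (ρ q') g * _ = _; ring,
      Finset.sum_comm]
    refine Finset.sum_eq_zero fun g _ => ?_
    rw [← Finset.mul_sum, Finset.sum_coe_sort s (fun q' => a q' * (q' : G → ℂ) g),
      show ∑ q' ∈ s, a q' * (q' : G → ℂ) g = 0 by simpa using congrFun ha g, mul_zero]

theorem finite_IBr : (IBr hM G).Finite :=
  Set.finite_coe_iff.1 (linearIndependent_IBr (hM := hM) (G := G)).finite

end CfsgLib.BrauerChar

namespace CfsgLib.BrauerChar

open Cfsg CfsgLib CfsgLib.Blocks Module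

variable {p : ℕ} {M : Ideal AlgInt} {hM : IsPModular p M} {G : Type*} [Group G] [Fintype G]

theorem nontrivial_of_irreducible {n : ℕ} {ρ : Representation (RF hM) G (Fin n → RF hM)} (h : ρ.IsIrreducible) :
    Nontrivial (Fin n → RF hM) := by
  haveI : IsSimpleModule (MonoidAlgebra (RF hM) G) ρ.asModule :=
    (Representation.irreducible_iff_isSimpleModule_asModule ρ).1 h
  haveI := IsSimpleModule.nontrivial (MonoidAlgebra (RF hM) G) ρ.asModule
  exact ρ.asModuleEquiv.symm.toEquiv.nontrivial

/-- An irreducible Brauer character determines its class scalars. -/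
theorem omega_unique {ω ω' : G → RF hM} {f : G → ℂ} (h : f ∈ IBrOf hM G ω) (h' : f ∈ IBrOf hM G ω') : ω = ω' := by
  classical
  obtain ⟨n, ρ, hi, hs, hf⟩ := h
  obtain ⟨m, σ, hi', hs', hf'⟩ := h'
  by_cases he : ∃ e : (Fin n → RF hM) ≃ₗ[RF hM] (Fin m → RF hM), ∀ g, σ g = e.conj (ρ g)
  · obtain ⟨e, he⟩ := he
    haveI := nontrivial_of_irreducible hi
    obtain ⟨v, hv⟩ := exists_ne (0 : Fin n → RF hM)
    funext g
    have h1 := congrArg e (hs g v)
    rw [finsum_mem_eq_toFinset_sum, map_sum, map_smul] at h1
    have h2 := hs' g (e v)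
    rw [finsum_mem_eq_toFinset_sum] at h2
    refine smul_left_injective (RF hM) (fun hc : e v = 0 => hv (e.map_eq_zero_iff.1 hc))
      (h1.symm.trans ((Finset.sum_congr rfl fun x _ => ?_).trans h2))
    rw [he, LinearEquiv.conj_apply_apply, e.symm_apply_apply]
  · exfalso
    let k : Bool → ℕ := fun b => cond b n m
    let R : ∀ b, Representation (RF hM) G (Fin (k b) → RF hM) := fun b =>
      match b with
      | true => ρ
      | false => σ
    have hne : ∀ (b b' : Bool) (e : (Fin (k b) → RF hM) ≃ₗ[RF hM] (Fin (k b') → RF hM)),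
        (∀ g, R b' g = e.conj (R b g)) → b = b' := by
      rintro (_ | _) (_ | _) e hb <;> try rfl
      · refine absurd ⟨e.symm, fun g => ?_⟩ he
        have := hb g
        refine LinearMap.ext fun w => ?_
        show σ g w = e.symm.conj (ρ g) w
        rw [show ρ g = e.conj (σ g) from this, LinearEquiv.conj_apply_apply, LinearEquiv.conj_apply_apply,
          LinearEquiv.symm_symm, e.symm_apply_apply, e.symm_apply_apply]
      · exact absurd ⟨e, hb⟩ he
    have h0 := trace_indep k R (fun b => by cases b <;> assumption) hne (fun b => cond b 1 (-1)) fun g hg => by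
      rw [Fintype.sum_bool]
      show 1 * LinearMap.trace (RF hM) _ (ρ g) + (-1) * LinearMap.trace (RF hM) _ (σ g) = 0
      rw [← res_bc ρ hg, ← res_bc σ hg]
      simp only [← hf, ← hf']
      ring
    exact one_ne_zero (congrFun h0 true)

end CfsgLib.BrauerChar
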