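import Cfsg.Agent.Blocks.BrauerChar.Decomp

/-!
# Groups of order prime to `p`: the reduction of an irreducible character stays irreducible
-/

set_option autoImplicit false
set_option linter.unusedSectionVars false
set_option linter.style.haveILetI false

namespace CfsgLib.BrauerChar

open Cfsg CfsgLib CfsgLib.Blocks CfsgLib.CharBasics Representation Module
open scoped ComplexConjugate

variable {p : ℕ} {M : Ideal AlgInt} (hM : IsPModular p M)

theorem ne_bot_or_top_of_avg {F V : Type*} [Field F] [AddCommGroup V] [Module F V] [Module.Finite F V]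
    {H : Type*} [Group H] [Fintype H] (σ : Representation F H V) {c : F} (hc : c ≠ 0)
    (havg : ∀ X : Module.End F V, ∑ y : H, σ y * X * σ y⁻¹ = (c * LinearMap.trace F V X) • (1 : Module.End F V))
    (W : Submodule F V) (hW : ∀ g : H, W ≤ W.comap (σ g)) : W = ⊥ ∨ W = ⊤ := by
  refine or_iff_not_imp_left.2 fun hb => ?_
  obtain ⟨w, hw, hw0⟩ := W.ne_bot_iff.1 hb
  obtain ⟨f, hf⟩ := Module.Projective.exists_dual_ne_zero F hw0
  have h := havg ((f.smulRight w) : Module.End F V)
  rw [LinearMap.trace_smulRight] at h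
  refine eq_top_iff.2 fun v _ => ?_
  have h2 : c * f w ≠ 0 := mul_ne_zero hc hf
  have h3 : (c * f w) • v ∈ W := by
    have := LinearMap.congr_fun h v
    rw [LinearMap.sum_apply] at this
    rw [LinearMap.smul_apply, Module.End.one_apply] at this
    rw [← this]
    refine W.sum_mem fun y _ => ?_
    rw [Module.End.mul_apply, Module.End.mul_apply, LinearMap.smulRight_apply]
    exact hW y (W.smul_mem _ hw)
  exact (W.smul_mem_iff h2).1 h3

/-- Averaging in an irreducible complex representation. -/
theorem sum_conj_End {H : Type*} [Group H] [Fintype H] {n : ℕ} (ρ : Representation ℂ H (Fin n → ℂ))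
    (hirr : ρ.IsIrreducible) (X : Module.End ℂ (Fin n → ℂ)) :
    ∑ y : H, ρ y * X * ρ y⁻¹ =
      ((Nat.card H : ℂ) / n * LinearMap.trace ℂ _ X) • (1 : Module.End ℂ (Fin n → ℂ)) := by
  haveI := hirr
  obtain ⟨c, hc, htr⟩ := commute_eq_scalar ρ (∑ y : H, ρ y * X * ρ y⁻¹) (fun g => by
    simp only [← Module.End.mul_eq_comp, Finset.mul_sum, Finset.sum_mul]
    refine Fintype.sum_equiv (Equiv.mulLeft g) _ _ fun y => ?_
    show ρ g * (ρ y * X * ρ y⁻¹) = ρ (g * y) * X * ρ (g * y)⁻¹ * ρ g
    simp only [map_mul, mul_assoc]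
    rw [← map_mul, show (g * y)⁻¹ * g = y⁻¹ by group])
  rw [hc]
  have h1 : LinearMap.trace ℂ _ (∑ y : H, ρ y * X * ρ y⁻¹) = (Nat.card H : ℂ) * LinearMap.trace ℂ _ X := by
    rw [map_sum, Finset.sum_congr rfl (g := fun _ => LinearMap.trace ℂ _ X) fun y _ => by
      rw [LinearMap.trace_mul_comm, ← mul_assoc, ← map_mul, inv_mul_cancel, map_one, one_mul],
      Finset.sum_const, Finset.card_univ, nsmul_eq_mul, Nat.card_eq_fintype_card]
  have hn : (n : ℂ) ≠ 0 := by
    have := apply_one_ne_zero (G := H) (χ := ρ.character) ⟨n, ρ, hirr, rfl⟩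
    rwa [char_one, Module.finrank_fin_fun] at this
  rw [show (Nat.card H : ℂ) / n * LinearMap.trace ℂ _ X = c by
    rw [div_mul_eq_mul_div, ← h1, htr, mul_div_assoc, div_self hn, mul_one]]
  rfl

variable {H : Type*} [Group H] [Fintype H]

theorem matrix_sum_conj {n m : ℕ} (ρ : Representation ℂ H (Fin n → ℂ)) (hirr : ρ.IsIrreducible)
    (B : Basis (Fin m) ℂ (Fin n → ℂ)) (A : H →* Matrix (Fin m) (Fin m) (plc hM))
    (hA : ∀ y, (A y).map (plc hM).subtype = LinearMap.toMatrix B B (ρ y)) {c : plc hM}
    (hc : (c : ℂ) = (Nat.card H : ℂ) / n) (X : Matrix (Fin m) (Fin m) (plc hM)) :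
    ∑ y : H, A y * X * A y⁻¹ = (c * X.trace) • (1 : Matrix (Fin m) (Fin m) (plc hM)) := by
  have hinj : Function.Injective ((plc hM).subtype.mapMatrix : Matrix (Fin m) (Fin m) (plc hM) →+* _) :=
    fun a b h => Matrix.ext fun i j => Subtype.val_injective (congrFun (congrFun h i) j)
  apply hinj
  rw [map_sum]
  simp only [map_mul, RingHom.mapMatrix_apply, hA]
  have h := congrArg (LinearMap.toMatrix B B) (sum_conj_End ρ hirr (Matrix.toLin B B (X.map (plc hM).subtype)))
  rw [map_sum] at h
  simp only [LinearMap.toMatrix_mul, LinearMap.toMatrix_toLin, map_smul, LinearMap.toMatrix_one] at h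
  rw [h, LinearMap.trace_eq_matrix_trace ℂ B, LinearMap.toMatrix_toLin]
  ext i j
  simp [Matrix.one_apply, hc, Matrix.trace, apply_ite Subtype.val]

/-- The reduction of an irreducible character of a group of order prime to `p` is irreducible. -/
theorem reduceRep_irreducible {n m : ℕ} (hH : ¬ p ∣ Nat.card H) (ρ : Representation ℂ H (Fin n → ℂ))
    (hirr : ρ.IsIrreducible) (B : Basis (Fin m) ℂ (Fin n → ℂ)) (A : H →* Matrix (Fin m) (Fin m) (plc hM))
    (hA : ∀ y, (A y).map (plc hM).subtype = LinearMap.toMatrix B B (ρ y)) :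
    (reduceRep hM A).IsIrreducible := by
  classical
  obtain ⟨q, hq⟩ : n ∣ Nat.card H := by
    have h := CharBasics.degree_dvd (G := H) ⟨ρ.character, ⟨n, ρ, hirr, rfl⟩⟩
    simpa [charDegree, char_one] using h
  have hqp : ¬ p ∣ q := fun h => hH (hq ▸ dvd_mul_of_dvd_right h n)
  have hn : (n : ℂ) ≠ 0 := by
    have := apply_one_ne_zero (G := H) (χ := ρ.character) ⟨n, ρ, hirr, rfl⟩
    rwa [char_one, Module.finrank_fin_fun] at this
  have hm : m = n := by
    have := Module.finrank_eq_card_basis B
    rw [Module.finrank_fin_fun, Fintype.card_fin] at this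
    exact this.symm
  have hm0 : m ≠ 0 := hm ▸ fun h => hn (by simp [h])
  have havg : ∀ X : Module.End (RF hM) (Fin m → RF hM), ∑ y : H, reduceRep hM A y * X * reduceRep hM A y⁻¹ =
      ((q : RF hM) * LinearMap.trace (RF hM) _ X) • (1 : Module.End (RF hM) (Fin m → RF hM)) := by
    intro X
    choose Y hY using fun i j => IsLocalRing.residue_surjective (LinearMap.toMatrix' X i j)
    have hY' : (res hM).mapMatrix (Matrix.of Y) = LinearMap.toMatrix' X := Matrix.ext fun i j => hY i j
    have h := congrArg (fun Z => Matrix.toLinAlgEquiv' ((res hM).mapMatrix Z))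
      (matrix_sum_conj hM ρ hirr B A hA (c := (q : plc hM)) (by
        rw [hq]; push_cast; field_simp) (Matrix.of Y))
    simp only [map_sum, map_mul, hY'] at h
    rw [show Matrix.toLinAlgEquiv' (LinearMap.toMatrix' X) = X from Matrix.toLin'_toMatrix' X] at h
    refine (Finset.sum_congr rfl fun y _ => ?_).trans (h.trans ?_)
    · rfl
    · have htr : res hM (Matrix.of Y).trace = LinearMap.trace (RF hM) _ X := by
        rw [LinearMap.trace_eq_matrix_trace (RF hM) (Pi.basisFun _ _), LinearMap.toMatrix_eq_toMatrix', ← hY',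
          RingHom.mapMatrix_apply, Matrix.trace, Matrix.trace, map_sum]
        rfl
      have e : (res hM).mapMatrix (((q : plc hM) * (Matrix.of Y).trace) • (1 : Matrix (Fin m) (Fin m) (plc hM))) =
          ((q : RF hM) * LinearMap.trace (RF hM) _ X) • 1 := by
        ext i j
        simp [Matrix.one_apply, apply_ite (res hM), htr]
      rw [e, map_smul, map_one]
  haveI : Nontrivial (Fin m → RF hM) := by
    haveI : Nonempty (Fin m) := ⟨⟨0, Nat.pos_of_ne_zero hm0⟩⟩
    infer_instance
  haveI : Nontrivial (Subrepresentation (reduceRep hM A)) := by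
    refine ⟨⟨⟨⊥, fun g v hv => by simp at hv; simp [hv]⟩, ⟨⊤, fun _ _ _ => trivial⟩, fun h => ?_⟩⟩
    exact bot_ne_top (congrArg Subrepresentation.toSubmodule h)
  refine ⟨fun S => ?_⟩
  rcases ne_bot_or_top_of_avg (reduceRep hM A) (natCast_ne_zero hM hqp) havg S.toSubmodule
      (fun g v hv => S.apply_mem_toSubmodule g hv) with h | h
  · exact Or.inl (Subrepresentation.toSubmodule_injective h)
  · exact Or.inr (Subrepresentation.toSubmodule_injective h)

end CfsgLib.BrauerChar
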