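import Cfsg.Agent.Blocks.Residue

/-!
# A place of the complex numbers over `M` and lifts of roots of unity
-/

set_option autoImplicit false
set_option linter.unusedSectionVars false
set_option linter.style.haveILetI false

namespace CfsgLib.BrauerChar

open Cfsg CfsgLib.Blocks Polynomial

variable {p : ℕ} {M : Ideal AlgInt}

theorem exists_place (hM : IsPModular p M) : ∃ V : ValuationSubring ℂ,
    (∀ z, MemLocalRing M z → z ∈ V) ∧ ∀ z, MemLocalIdeal M z → z ∈ V.nonunits := by
  obtain ⟨V, h1, h2⟩ := (localIdeal hM).image_subset_nonunits_valuationSubring (K := ℂ)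
    (isMaximal_localIdeal hM).ne_top
  exact ⟨V, fun z hz => h1 hz, fun z hz => h2 ⟨⟨z, memLocalRing_of_memLocalIdeal hz⟩, hz, rfl⟩⟩

/-- A valuation ring of `ℂ` dominating the local ring at `M`. -/
noncomputable def plc (hM : IsPModular p M) : ValuationSubring ℂ := (exists_place hM).choose

/-- The residue field of the place. -/
abbrev RF (hM : IsPModular p M) : Type := IsLocalRing.ResidueField (plc hM)

/-- Reduction at the place. -/
noncomputable abbrev res (hM : IsPModular p M) : plc hM →+* RF hM := IsLocalRing.residue (plc hM)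

variable (hM : IsPModular p M)

theorem mem_plc {z : ℂ} (hz : MemLocalRing M z) : z ∈ plc hM := (exists_place hM).choose_spec.1 z hz

theorem mem_plc_of_isIntegral {z : ℂ} (hz : IsIntegral ℤ z) : z ∈ plc hM :=
  mem_plc hM (memLocalRing_of_isIntegral hM hz)

theorem res_eq_zero {z : plc hM} (hz : MemLocalRing M (z : ℂ)) : res hM z = 0 ↔ MemLocalIdeal M (z : ℂ) := by
  rw [IsLocalRing.residue_eq_zero_iff, ← ValuationSubring.coe_mem_nonunits_iff]
  refine ⟨fun h => by_contra fun hn => ?_, (exists_place hM).choose_spec.2 _⟩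
  rcases (plc hM).mem_nonunits_iff_or.1 h with h0 | h0
  · exact hn (h0 ▸ memLocalIdeal_zero hM)
  · exact h0 (mem_plc hM (memLocalRing_inv hM hz hn))

instance : CharP (RF hM) p := by
  constructor
  intro n
  rw [← map_natCast (res hM) n, res_eq_zero hM (by simpa using memLocalRing_natCast hM n)]
  simpa using memLocalIdeal_natCast_iff hM n

instance : IsAlgClosed (RF hM) := by
  refine IsAlgClosed.of_exists_root _ fun q hq hirr => ?_
  obtain ⟨Q, hQ, hdeg, hQm⟩ := Polynomial.lifts_and_natDegree_eq_and_monic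
    (f := res hM) ((Polynomial.map_surjective _ IsLocalRing.residue_surjective) q) hq
  have hd : (Q.map (plc hM).subtype).degree ≠ 0 := by
    rw [Polynomial.degree_eq_natDegree (hQm.map _).ne_zero, hQm.natDegree_map, hdeg]
    exact_mod_cast hirr.natDegree_pos.ne'
  obtain ⟨z, hz⟩ := IsAlgClosed.exists_root _ hd
  have hint : IsIntegral (plc hM) z := ⟨Q, hQm, by rw [Polynomial.IsRoot, eval_map] at hz; exact hz⟩
  obtain ⟨w, hw⟩ := IsIntegrallyClosed.isIntegral_iff.1 hint
  refine ⟨res hM w, ?_⟩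
  rw [← hQ, eval_map, eval₂_at_apply]
  have : Q.eval w = 0 := Subtype.val_injective (by
    rw [Polynomial.IsRoot, eval_map, ← hw] at hz
    exact (eval₂_at_apply (plc hM).subtype w).symm.trans hz)
  rw [this, map_zero]

theorem natCast_ne_zero {n : ℕ} (hn : ¬ p ∣ n) : (n : RF hM) ≠ 0 := fun h => hn ((CharP.cast_eq_zero_iff _ p n).1 h)

/-- The multiplicative lift of the roots of unity of order prime to `p`. -/
noncomputable def teich (x : RF hM) : ℂ :=
  open scoped Classical in
  if h : ∃ ζ : plc hM, (∃ m : ℕ, ¬ p ∣ m ∧ ζ ^ m = 1) ∧ res hM ζ = x then (h.choose : ℂ) else 0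

theorem eq_one_of_res {η : plc hM} {n : ℕ} (hn : ¬ p ∣ n) (hη : η ^ n = 1) (h : res hM η = 1) : η = 1 := by
  by_contra hne
  have h0 := geom_sum_mul η n
  rw [hη, sub_self] at h0
  have h1 := congrArg (res hM) ((mul_eq_zero.1 h0).resolve_right (sub_ne_zero.2 hne))
  rw [map_sum, map_zero] at h1
  simp only [map_pow, h, one_pow, Finset.sum_const, Finset.card_range, nsmul_one] at h1
  exact natCast_ne_zero hM hn h1

theorem teich_res {ζ : plc hM} {m : ℕ} (hm : ¬ p ∣ m) (hζ : ζ ^ m = 1) : teich hM (res hM ζ) = (ζ : ℂ) := by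
  classical
  have hex : ∃ η : plc hM, (∃ m : ℕ, ¬ p ∣ m ∧ η ^ m = 1) ∧ res hM η = res hM ζ := ⟨ζ, ⟨m, hm, hζ⟩, rfl⟩
  rw [teich, dif_pos hex]
  obtain ⟨⟨n, hn, hη⟩, heq⟩ := hex.choose_spec
  congr 1
  set η := hex.choose
  have hm0 : m ≠ 0 := fun h => hm (h ▸ dvd_zero p)
  obtain ⟨j, rfl⟩ := Nat.exists_eq_succ_of_ne_zero hm0
  have h1 : η * ζ ^ j = 1 := eq_one_of_res hM (n := n * (j + 1)) (fun h => (hM.1.dvd_mul.1 h).elim hn hm)
    (by rw [mul_pow, pow_mul, hη, one_pow, ← pow_mul, mul_comm n, ← mul_assoc, mul_comm j, mul_assoc, pow_mul, hζ,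
      one_pow, one_mul])
    (by rw [map_mul, heq, ← map_mul, ← pow_succ', hζ, map_one])
  calc η = η * ζ ^ (j + 1) := by rw [hζ, mul_one]
    _ = ζ := by rw [pow_succ, ← mul_assoc, h1, one_mul]

/-- Roots of unity of order prime to `p` of the residue field have lifts. -/
theorem exists_root_lift {x : RF hM} {m : ℕ} (hm : ¬ p ∣ m) (hx : x ^ m = 1) :
    ∃ ζ : plc hM, ζ ^ m = 1 ∧ res hM ζ = x := by
  classical
  have hm0 : m ≠ 0 := fun h => hm (h ▸ dvd_zero p)
  haveI : NeZero m := ⟨hm0⟩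
  have hprim := Complex.isPrimitiveRoot_exp m hm0
  set w : plc hM := ⟨_, mem_plc_of_isIntegral hM (hprim.isIntegral (Nat.pos_of_ne_zero hm0))⟩ with hw
  have hwp : IsPrimitiveRoot w m := IsPrimitiveRoot.of_map_of_injective (f := (plc hM).subtype)
    (by exact hprim) (Subtype.val_injective)
  have hp : IsPrimitiveRoot (res hM w) m := by
    refine ⟨by rw [← map_pow, hwp.pow_eq_one, map_one], fun l hl => ?_⟩
    refine hwp.dvd_of_pow_eq_one l (eq_one_of_res hM hm ?_ (by rw [map_pow, hl]))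
    rw [← pow_mul, mul_comm, pow_mul, hwp.pow_eq_one, one_pow]
  obtain ⟨i, -, hi⟩ := hp.eq_pow_of_pow_eq_one hx
  exact ⟨w ^ i, by rw [← pow_mul, mul_comm, pow_mul, hwp.pow_eq_one, one_pow], by rw [map_pow, hi]⟩

theorem res_teich {x : RF hM} {m : ℕ} (hm : ¬ p ∣ m) (hx : x ^ m = 1) :
    ∃ h : teich hM x ∈ plc hM, res hM ⟨teich hM x, h⟩ = x := by
  obtain ⟨ζ, hζ, rfl⟩ := exists_root_lift hM hm hx
  refine ⟨by rw [teich_res hM hm hζ]; exact ζ.2, ?_⟩
  congr 1
  exact Subtype.ext (teich_res hM hm hζ)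

theorem isIntegral_teich (x : RF hM) : IsIntegral ℤ (teich hM x) := by
  classical
  rw [teich]
  split_ifs with h
  · obtain ⟨⟨m, hm, hζ⟩, -⟩ := h.choose_spec
    refine IsIntegral.of_pow (n := m) (Nat.pos_of_ne_zero fun h0 => hm (h0 ▸ dvd_zero p)) ?_
    rw [← SubmonoidClass.coe_pow, hζ]
    exact isIntegral_one
  · exact isIntegral_zero

end CfsgLib.BrauerChar
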