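import Cfsg.Agent.Blocks.BrauerChar.PPrime
import Cfsg.Agent.BrauerInd.Induction
import Cfsg.Agent.Exceptional.Virtual

/-!
# Irreducible Brauer characters are integral combinations of reductions
-/

set_option autoImplicit false
set_option linter.unusedSectionVars false
set_option linter.style.haveILetI false

namespace CfsgLib.BrauerChar

open Cfsg CfsgLib CfsgLib.Blocks CfsgLib.CharBasics Representation Module

variable {p : ℕ} {M : Ideal AlgInt} (hM : IsPModular p M)

theorem isCharacter_iBr {H : Type*} [Group H] [Fintype H] (hH : ¬ p ∣ Nat.card H) (φ : IBr hM H) :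
    IsCharacter H (φ : H → ℂ) := by
  classical
  haveI : Fintype (IrrCharacter H) := @Fintype.ofFinite _ finite_irrCharacter
  obtain ⟨χ, hχ⟩ := exists_dec_ne_zero hM φ
  obtain ⟨n, m, ρ, B, A, hirr, hρ, hA⟩ := exists_integral_model hM χ
  have hreg : ∀ g : H, ¬ p ∣ orderOf g := fun g h => hH (h.trans (orderOf_dvd_natCard g))
  let φ₀ : IBr hM H := ⟨bc hM (reduceRep hM A), m, reduceRep hM A, reduceRep_irreducible hM hH ρ hirr B A hA, rfl⟩
  have hval : ∀ g, (φ₀ : H → ℂ) g = (χ : H → ℂ) g := fun g => by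
    rw [← hρ]; exact bc_reduceRep hM hA (hreg g)
  have h := coeff_eq_zero hM (c := fun ψ : IBr hM H => (dec hM χ ψ : ℂ) - if ψ = φ₀ then 1 else 0) (fun g => ?_) φ
  · by_cases he : φ = φ₀
    · rw [he, show ((φ₀ : IBr hM H) : H → ℂ) = (χ : H → ℂ) from funext hval]
      exact isCharacter_of_irr χ.2
    · exfalso
      rw [if_neg he, sub_zero, Nat.cast_eq_zero] at h
      exact hχ h
  simp only [sub_mul, Finset.sum_sub_distrib, ← apply_eq_sum_dec hM χ (hreg g), ite_mul, one_mul, zero_mul,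
    Finset.sum_ite_eq', Finset.mem_univ, if_true, hval, sub_self]

theorem isCharacter_bc {H : Type*} [Group H] [Fintype H] (hH : ¬ p ∣ Nat.card H) {V : Type} [AddCommGroup V]
    [Module (RF hM) V] [Module.Finite (RF hM) V] (ρ : Representation (RF hM) H V) : IsCharacter H (bc hM ρ) := by
  suffices ∀ f ∈ AddSubmonoid.closure (IBr hM H), IsCharacter H f from this _ (bc_mem_closure_IBr hM ρ)
  intro f h
  induction h using AddSubmonoid.closure_induction with
  | mem f hf => exact isCharacter_iBr hM hH ⟨f, hf⟩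
  | zero => exact isCharacter_zero
  | add a b _ _ ha hb => exact isCharacter_add ha hb

variable {G : Type*} [Group G] [Fintype G]

theorem exists_exponent (hM : IsPModular p M) (G : Type*) [Group G] [Fintype G] :
    ∃ e : ℕ, (∀ g : G, ¬ p ∣ orderOf g → g ^ e = g) ∧ (∀ g : G, (∃ k, orderOf g = p ^ k) → g ^ e = 1) ∧
      ∀ g : G, ¬ p ∣ orderOf (g ^ e) := by
  set a := (Nat.card G).factorization p with ha
  set m := Nat.card G / p ^ a with hm
  have hpm : ¬ p ∣ m := Nat.not_dvd_ordCompl hM.1 Nat.card_pos.ne'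
  have hcop : Nat.Coprime m (p ^ a) := ((hM.1.coprime_iff_not_dvd.2 hpm).symm.pow_right a)
  obtain ⟨e, he1, he2⟩ := Nat.chineseRemainder hcop 1 0
  have hpe : p ^ a ∣ e := (Nat.modEq_zero_iff_dvd).1 he2
  refine ⟨e, fun g hg => ?_, fun g hg => ?_, fun g h => ?_⟩
  · have hdvd : orderOf g ∣ m := by
      refine Nat.Coprime.dvd_of_dvd_mul_left ((hM.1.coprime_iff_not_dvd.2 hg).symm.pow_right a) ?_
      rw [Nat.ordProj_mul_ordCompl_eq_self]
      exact orderOf_dvd_natCard g
    conv_rhs => rw [← pow_one g]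
    exact pow_eq_pow_iff_modEq.2 (he1.of_dvd hdvd)
  · obtain ⟨k, hk⟩ := hg
    refine orderOf_dvd_iff_pow_eq_one.1 (Dvd.dvd.trans ?_ hpe)
    rw [hk]
    exact Nat.pow_dvd_pow p ((hM.1.pow_dvd_iff_le_factorization Nat.card_pos.ne').1 (hk ▸ orderOf_dvd_natCard g))
  · refine hpm (h.trans (orderOf_dvd_of_pow_eq_one ?_))
    rw [← pow_mul]
    refine orderOf_dvd_iff_pow_eq_one.1 ((orderOf_dvd_natCard g).trans ?_)
    conv_lhs => rw [← Nat.ordProj_mul_ordCompl_eq_self (Nat.card G) p]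
    exact Nat.mul_dvd_mul hpe dvd_rfl

theorem iBr_pow_isGenChar (φ : IBr hM G) {e : ℕ} (he1 : ∀ g : G, ¬ p ∣ orderOf g → g ^ e = g)
    (he0 : ∀ g : G, (∃ k, orderOf g = p ^ k) → g ^ e = 1) (her : ∀ g : G, ¬ p ∣ orderOf (g ^ e)) :
    IsGeneralizedCharacter G (fun g => (φ : G → ℂ) (g ^ e)) := by
  classical
  have hcf : IsClassFunction G (fun g => (φ : G → ℂ) (g ^ e)) := fun g x => by
    show (φ : G → ℂ) ((x * g * x⁻¹) ^ e) = (φ : G → ℂ) (g ^ e)
    rw [conj_pow, iBr_isClassFunction hM φ]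
  refine BrauerInd.mem_genChar.1 (BrauerInd.mem_genChar_of_elementary hcf ?_)
  rintro E ⟨q, hq, x, hxc, hcop, k, hk⟩
  haveI : Fintype E := Fintype.ofFinite _
  haveI := Fact.mk hq
  obtain ⟨Q⟩ : Nonempty (Sylow q E) := inferInstance
  have hcard : orderOf x * q ^ k = Nat.card E := by rw [← Nat.card_zpowers, ← hk, Subgroup.card_mul_index]
  have hQ : Nat.card (Q : Subgroup E) = q ^ k := by
    rw [Q.card_eq_multiplicity, ← hcard, Nat.factorization_mul (orderOf_pos x).ne' (pow_ne_zero _ hq.ne_zero),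
      Finsupp.add_apply, hq.factorization_pow, Finsupp.single_eq_same,
      Nat.factorization_eq_zero_of_not_dvd fun hd => hq.one_lt.ne' (Nat.eq_one_of_dvd_coprimes hcop hd dvd_rfl),
      zero_add]
  have hcompl : Subgroup.IsComplement' (Subgroup.zpowers x) (Q : Subgroup E) :=
    Subgroup.isComplement'_of_coprime (by rw [Nat.card_zpowers, hQ, hcard])
      (by rw [Nat.card_zpowers, hQ]; exact hcop.pow_right k)
  have hsplit : ∀ z : E, ∃ i : ℤ, ∃ u ∈ (Q : Subgroup E), z = x ^ i * u := fun z => by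
    obtain ⟨⟨⟨a, i, rfl⟩, u⟩, hz⟩ := hcompl.2 z
    exact ⟨i, u, u.2, hz.symm⟩
  have hcomm : ∀ (i : ℤ) (u : E), Commute (x ^ i) u := fun i u =>
    Commute.zpow_left (Subgroup.mem_center_iff.1 hxc u).symm i
  have hu : (∀ u ∈ (Q : Subgroup E), u ^ e = u) ∨ ∀ u ∈ (Q : Subgroup E), u ^ e = 1 := by
    by_cases hqp : q = p
    · refine Or.inr fun u hu => Subtype.ext ?_
      obtain ⟨j, hj⟩ := IsPGroup.iff_orderOf.1 Q.2 ⟨u, hu⟩
      rw [SubmonoidClass.coe_pow, he0 u ⟨j, by
        rw [← hqp, Subgroup.orderOf_coe, ← hj]; exact Subgroup.orderOf_coe (⟨u, hu⟩ : (Q : Subgroup E))⟩]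
      rfl
    · refine Or.inl fun u hu => Subtype.ext ?_
      obtain ⟨j, hj⟩ := IsPGroup.iff_orderOf.1 Q.2 ⟨u, hu⟩
      rw [SubmonoidClass.coe_pow]
      refine he1 u fun h => hqp ?_
      rw [Subgroup.orderOf_coe] at h
      have h' : p ∣ orderOf (⟨u, hu⟩ : (Q : Subgroup E)) := by rwa [← Subgroup.orderOf_coe]
      rw [hj] at h'
      exact ((Nat.prime_dvd_prime_iff_eq hM.1 hq).1 (hM.1.dvd_of_dvd_pow h')).symm
  let ν : E →* E := MonoidHom.mk' (fun z => z ^ e) fun z w => by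
    obtain ⟨i, u, hu', rfl⟩ := hsplit z
    obtain ⟨j, v, hv', rfl⟩ := hsplit w
    have h1 : x ^ i * u * (x ^ j * v) = x ^ (i + j) * (u * v) := by
      rw [zpow_add, mul_assoc, ← mul_assoc u, ← (hcomm j u).eq]; simp [mul_assoc]
    show (x ^ i * u * (x ^ j * v)) ^ e = (x ^ i * u) ^ e * (x ^ j * v) ^ e
    rw [h1, (hcomm _ _).mul_pow, (hcomm _ _).mul_pow, (hcomm _ _).mul_pow]
    have h2 : (x ^ (i + j)) ^ e = (x ^ i) ^ e * (x ^ j) ^ e := by rw [zpow_add, (hcomm i _).mul_pow]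
    rw [h2]
    rcases hu with h | h
    · rw [h u hu', h v hv', h _ (mul_mem hu' hv'), mul_assoc, mul_assoc, ← mul_assoc u,
        ← ((hcomm j u).pow_left e).eq]
      simp [mul_assoc]
    · rw [h u hu', h v hv', h _ (mul_mem hu' hv')]
      simp
  haveI : Fintype ν.range := Fintype.ofFinite _
  have hH : ¬ p ∣ Nat.card ν.range := fun h => by
    haveI := Fact.mk hM.1
    obtain ⟨⟨y, z, rfl⟩, hy⟩ := exists_prime_orderOf_dvd_card' p h
    refine her (z : G) ?_
    rw [← SubmonoidClass.coe_pow, show z ^ e = ν z from rfl, ← hy, Subgroup.orderOf_coe]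
    exact dvd_of_eq (orderOf_injective ν.range.subtype Subtype.val_injective _).symm
  obtain ⟨n, ρ, -, hρ⟩ := φ.2
  have hch := isCharacter_bc hM hH (ρ.comp (E.subtype.comp ν.range.subtype))
  have := isCharacter_comp hch ν.rangeRestrict
  refine BrauerInd.mem_genChar.2 (Exceptional.gen_of_character ?_)
  convert this using 1
  funext z
  have hz : ((ν.rangeRestrict z : ν.range) : E) = z ^ e := rfl
  have hreg : ¬ p ∣ orderOf (ν.rangeRestrict z) := by
    rw [← Subgroup.orderOf_coe, ← Subgroup.orderOf_coe, hz, SubmonoidClass.coe_pow]; exact her z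
  rw [bc_regular _ hreg, hρ, bc_regular ρ (her z)]
  rfl

variable [Fintype (IrrCharacter G)]

/-- An irreducible Brauer character is an integral combination of the reductions of its block. -/
theorem exists_int_expansion {B : Set (IrrCharacter G)} [DecidablePred (· ∈ B)] (hB : IsPBlock M B) {φ : IBr hM G}
    (hφ : φ ∈ IBrB hM B) : ∃ n : IrrCharacter G → ℤ, ∀ g : G, ¬ p ∣ orderOf g →
      (φ : G → ℂ) g = ∑ χ ∈ Finset.univ.filter (· ∈ B), (n χ : ℂ) * (χ : G → ℂ) g := by
  classical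
  obtain ⟨e, he1, he0, her⟩ := exists_exponent hM G
  have hgen := iBr_pow_isGenChar hM φ he1 he0 her
  have hint : ∀ χ : IrrCharacter G, ∃ k : ℤ, classInner (fun g => (φ : G → ℂ) (g ^ e)) (χ : G → ℂ) = k := fun χ =>
    Exceptional.gen_inner_int hgen χ
  choose n hn using hint
  have hex : ∀ g : G, ¬ p ∣ orderOf g → (φ : G → ℂ) g = ∑ χ : IrrCharacter G, (n χ : ℂ) * (χ : G → ℂ) g := by
    intro g hg
    have hcf : IsClassFunction G (fun g => (φ : G → ℂ) (g ^ e)) := fun g x => by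
      show (φ : G → ℂ) ((x * g * x⁻¹) ^ e) = (φ : G → ℂ) (g ^ e)
      rw [conj_pow, iBr_isClassFunction hM φ]
    have h := congrFun (classFun_expand hcf) g
    simp only [Finset.sum_apply, Pi.smul_apply, smul_eq_mul, hn, he1 g hg] at h
    exact h
  refine ⟨n, fun g hg => ?_⟩
  -- the part outside the block
  set c := fun ψ : IBr hM G => (if ψ = φ then (1 : ℂ) else 0) - ∑ χ : IrrCharacter G, (n χ : ℂ) * (dec hM χ ψ : ℂ)
  have hc : ∀ ψ, c ψ = 0 := coeff_eq_zero hM fun y => by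
    by_cases hy : p ∣ orderOf y
    · exact Finset.sum_eq_zero fun ψ _ => by rw [iBr_singular hM ψ hy, mul_zero]
    simp only [c, sub_mul, Finset.sum_sub_distrib, ite_mul, one_mul, zero_mul, Finset.sum_ite_eq', Finset.mem_univ,
      if_true, Finset.sum_mul]
    rw [Finset.sum_comm, sub_eq_zero, hex y hy]
    exact Finset.sum_congr rfl fun χ _ => by
      rw [apply_eq_sum_dec hM χ hy, Finset.mul_sum]; exact Finset.sum_congr rfl fun ψ _ => by ring
  have hout : ∀ ψ : IBr hM G,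
      ∑ χ ∈ Finset.univ.filter (fun χ => χ ∉ B), (n χ : ℂ) * (dec hM χ ψ : ℂ) = 0 := by
    intro ψ
    by_cases hψ : ψ ∈ IBrB hM B
    · refine Finset.sum_eq_zero fun χ hχ => ?_
      rw [show dec hM χ ψ = 0 from by_contra fun h => (Finset.mem_filter.1 hχ).2 (mem_of_mem_IBrB hM hB hψ h),
        Nat.cast_zero, mul_zero]
    · have h := hc ψ
      simp only [c, if_neg (fun h : ψ = φ => hψ (h ▸ hφ)), zero_sub, neg_eq_zero] at h
      rw [← Finset.sum_filter_add_sum_filter_not Finset.univ (fun χ => χ ∈ B),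
        Finset.sum_eq_zero (s := Finset.univ.filter fun χ => χ ∈ B) fun χ hχ => by
          rw [dec_eq_zero_of_not_mem hM hB (Finset.mem_filter.1 hχ).2 hψ, Nat.cast_zero, mul_zero], zero_add] at h
      exact h
  rw [hex g hg, ← Finset.sum_filter_add_sum_filter_not Finset.univ (fun χ => χ ∈ B), add_eq_left,
    Finset.sum_congr rfl (g := fun χ : IrrCharacter G => ∑ ψ : IBr hM G,
      (n χ : ℂ) * (dec hM χ ψ : ℂ) * (ψ : G → ℂ) g) fun χ _ => by
      rw [apply_eq_sum_dec hM χ hg, Finset.mul_sum]; exact Finset.sum_congr rfl fun ψ _ => by ring,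
    Finset.sum_comm]
  exact Finset.sum_eq_zero fun ψ _ => by rw [← Finset.sum_mul, hout ψ, zero_mul]

theorem iBr_one_pos (φ : IBr hM G) : ∃ n : ℕ, 0 < n ∧ (φ : G → ℂ) 1 = n := by
  classical
  obtain ⟨n, ρ, hirr, hρ⟩ := φ.2
  haveI := nontrivial_of_irreducible hirr
  refine ⟨n, Nat.pos_of_ne_zero fun h => ?_, ?_⟩
  · subst h
    exact not_subsingleton (Fin 0 → RF hM) inferInstance
  have h1 : ¬ p ∣ orderOf (1 : G) := by rw [orderOf_one]; exact hM.1.not_dvd_one
  rw [hρ, bc_regular ρ h1]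
  have hr : ∀ x ∈ (ρ 1).charpoly.roots, x = 1 := fun x hx => by
    have := root_pow_orderOf ρ hx
    rwa [orderOf_one, pow_one] at this
  rw [Multiset.eq_replicate.2 ⟨((IsAlgClosed.splits _).natDegree_eq_card_roots).symm.trans
      (by rw [LinearMap.charpoly_natDegree, Module.finrank_fin_fun]), hr⟩, Multiset.map_replicate, Multiset.sum_replicate,
    show teich hM (1 : RF hM) = 1 by
      rw [← map_one (res hM), teich_res hM (m := 1) hM.1.not_dvd_one (one_pow 1)]; rfl, nsmul_one]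

end CfsgLib.BrauerChar
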